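import Mathlib
import Cfsg.Agent.SpGeom.Order
set_option autoImplicit false
set_option maxRecDepth 4000

/-!
`Sp_4(2) ≅ S_6` through the even subsets of six points.
-/

namespace CfsgLib.SpGeom

open Matrix

/-- Four pairs of points giving a symplectic basis. -/
def sixBase : Fin 2 ⊕ Fin 2 → Fin 6 → ZMod 2
  | .inr 0 => ![1, 1, 0, 0, 0, 0]
  | .inl 0 => ![0, 1, 1, 0, 0, 0]
  | .inr 1 => ![0, 0, 0, 1, 1, 0]
  | .inl 1 => ![0, 0, 0, 0, 1, 1]

/-- Symplectic coordinates of an even subset. -/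
def sixProj (x : Fin 6 → ZMod 2) : Fin 2 ⊕ Fin 2 → ZMod 2
  | .inr i => ∑ k, x k * sixBase (.inl i) k
  | .inl i => ∑ k, x k * sixBase (.inr i) k

/-- Even subsets. -/
def sixEven (x : Fin 6 → ZMod 2) : Prop := ∑ k, x k = 0

theorem sixProj_add (x y : Fin 6 → ZMod 2) : sixProj (x + y) = sixProj x + sixProj y := by
  funext j; rcases j with j | j <;> simp [sixProj, add_mul, Finset.sum_add_distrib]

theorem sixProj_smul (c : ZMod 2) (x : Fin 6 → ZMod 2) : sixProj (c • x) = c • sixProj x := by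
  funext j; rcases j with j | j <;> simp [sixProj, mul_assoc, Finset.mul_sum]

theorem sixProj_one : sixProj (fun _ => 1) = 0 := by decide +kernel

theorem sixBase_even : ∀ j, sixEven (sixBase j) := by unfold sixEven; decide +kernel

theorem sixProj_base : ∀ j, sixProj (sixBase j) = Pi.single j 1 := by decide +kernel

theorem sixEven_decompose : ∀ x : Fin 6 → ZMod 2, sixEven x →
    ∃ d : ZMod 2, x = sixProj x (.inl 0) • sixBase (.inl 0) + sixProj x (.inl 1) • sixBase (.inl 1)
      + sixProj x (.inr 0) • sixBase (.inr 0) + sixProj x (.inr 1) • sixBase (.inr 1)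
      + d • (fun _ => 1) := by
  unfold sixEven; decide +kernel

theorem sixProj_form : ∀ x : Fin 6 → ZMod 2, sixEven x → ∀ j : Fin 2 ⊕ Fin 2,
    Cfsg.sympForm 2 (ZMod 2) (sixProj x) (Pi.single j 1) = ∑ k, x k * sixBase j k := by
  intro x _ j
  rcases j with j | j
  · rw [form_single_inl_right]; rfl
  · rw [form_single_inr_right, ZMod.neg_eq_self_mod_two]; rfl

theorem sixEven_perm (σ : Equiv.Perm (Fin 6)) {x : Fin 6 → ZMod 2} (h : sixEven x) :
    sixEven (x ∘ σ.symm) := by
  unfold sixEven at h ⊢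
  rw [← h]
  exact Equiv.sum_comp σ.symm x

/-- The matrix of a permutation. -/
def sixMat (σ : Equiv.Perm (Fin 6)) : Matrix (Fin 2 ⊕ Fin 2) (Fin 2 ⊕ Fin 2) (ZMod 2) :=
  Matrix.of fun k j => sixProj (sixBase j ∘ σ.symm) k

theorem sixMat_mulVec (σ : Equiv.Perm (Fin 6)) {x : Fin 6 → ZMod 2} (h : sixEven x) :
    sixMat σ *ᵥ sixProj x = sixProj (x ∘ σ.symm) := by
  obtain ⟨d, hd⟩ := sixEven_decompose x h
  conv_rhs => rw [hd]
  simp only [Pi.add_comp, Pi.smul_comp, sixProj_add, sixProj_smul]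
  rw [show ((fun _ => (1 : ZMod 2)) : Fin 6 → ZMod 2) ∘ σ.symm = fun _ => 1 from rfl, sixProj_one,
    smul_zero, add_zero]
  funext k
  simp [Matrix.mulVec, dotProduct, Fintype.sum_sum_type, Fin.sum_univ_two, sixMat]
  ring

theorem sixMat_mul (σ τ : Equiv.Perm (Fin 6)) : sixMat (σ * τ) = sixMat σ * sixMat τ := by
  refine Matrix.ext fun k j => ?_
  have h := congrFun (sixMat_mulVec σ (sixEven_perm τ (sixBase_even j))) k
  exact h.symm

theorem sixProj_inner : ∀ x : Fin 6 → ZMod 2, sixEven x → ∀ y : Fin 6 → ZMod 2, sixEven y →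
    Cfsg.sympForm 2 (ZMod 2) (sixProj x) (sixProj y) = ∑ k, x k * y k := by
  intro x hx y hy
  obtain ⟨d, hd⟩ := sixEven_decompose y hy
  have hpy : sixProj y = sixProj y (.inl 0) • Pi.single (.inl 0) 1 + sixProj y (.inl 1) • Pi.single (.inl 1) 1
      + sixProj y (.inr 0) • Pi.single (.inr 0) 1 + sixProj y (.inr 1) • Pi.single (.inr 1) 1 := by
    funext j; rcases j with j | j <;> fin_cases j <;> simp
  rw [hpy]
  simp only [form_add_right, form_smul_right, sixProj_form x hx]
  conv_rhs => rw [hd]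
  simp only [Pi.add_apply, Pi.smul_apply, smul_eq_mul, mul_add, Finset.sum_add_distrib,
    mul_left_comm (x _), ← Finset.mul_sum, mul_one]
  rw [← Finset.sum_mul, show ∑ k, x k = 0 from hx, zero_mul, add_zero]

theorem sixMat_mem (σ : Equiv.Perm (Fin 6)) :
    sixMat σ ∈ Matrix.symplecticGroup (Fin 2) (ZMod 2) := by
  refine mem_of_form fun u v => ?_
  have hdec : ∀ w : Fin 2 ⊕ Fin 2 → ZMod 2, ∃ x, sixEven x ∧ sixProj x = w := by
    intro w
    refine ⟨w (.inl 0) • sixBase (.inl 0) + w (.inl 1) • sixBase (.inl 1)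
      + w (.inr 0) • sixBase (.inr 0) + w (.inr 1) • sixBase (.inr 1), ?_, ?_⟩
    · unfold sixEven
      simp only [Pi.add_apply, Pi.smul_apply, smul_eq_mul, Finset.sum_add_distrib, ← Finset.mul_sum]
      rw [sixBase_even, sixBase_even, sixBase_even, sixBase_even]
      simp
    · simp only [sixProj_add, sixProj_smul, sixProj_base]
      funext j; rcases j with j | j <;> fin_cases j <;> simp
  obtain ⟨x, hx, rfl⟩ := hdec u
  obtain ⟨y, hy, rfl⟩ := hdec v
  rw [sixMat_mulVec σ hx, sixMat_mulVec σ hy, sixProj_inner _ hx _ hy,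
    sixProj_inner _ (sixEven_perm σ hx) _ (sixEven_perm σ hy)]
  exact Equiv.sum_comp σ.symm fun k => x k * y k

/-- Indicator of a pair of points. -/
def sixPair (a b : Fin 6) : Fin 6 → ZMod 2 := fun k => if k = a ∨ k = b then 1 else 0

theorem sixPair_facts : ∀ a b : Fin 6, a ≠ b → sixEven (sixPair a b) ∧
    ∀ c d : Fin 6, c ≠ d → sixProj (sixPair c d) = sixProj (sixPair a b) → c = a ∨ c = b := by
  unfold sixEven; decide +kernel

theorem eq_one_of_sixMat {σ : Equiv.Perm (Fin 6)} (h : sixMat σ = 1) : σ = 1 := by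
  refine Equiv.ext fun a => ?_
  rw [Equiv.Perm.one_apply]
  by_contra hne
  obtain ⟨b, hba, hbσ⟩ : ∃ b : Fin 6, b ≠ a ∧ b ≠ σ a := by
    have key : ∀ a c : Fin 6, ∃ b : Fin 6, b ≠ a ∧ b ≠ c := by decide
    exact key a (σ a)
  have e : sixPair a b ∘ σ.symm = sixPair (σ a) (σ b) := by
    funext k
    simp only [Function.comp, sixPair, Equiv.symm_apply_eq]
  have := sixMat_mulVec σ (sixPair_facts a b hba.symm).1
  rw [h, Matrix.one_mulVec, e] at this
  rcases (sixPair_facts a b hba.symm).2 (σ a) (σ b) (fun hh => hba (σ.injective hh).symm) this.symm with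
    hh | hh
  · exact hne hh
  · exact hbσ hh.symm

theorem symSix_equiv (F : Type*) [Field F] [Fintype F] (hF : Fintype.card F = 2) :
    Nonempty (Matrix.symplecticGroup (Fin 2) F ≃* Equiv.Perm (Fin 6)) := by
  have : CharP F 2 := charP_of_card_eq_prime hF
  let ι := ZMod.castHom (dvd_refl 2) F
  let φ : Equiv.Perm (Fin 6) →* Matrix.symplecticGroup (Fin 2) F :=
    MonoidHom.mk' (fun σ => ⟨(sixMat σ).map ι, SymplecticGroup.map_mem (sixMat_mem σ) ι⟩)
      fun σ τ => Subtype.ext (by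
        change (sixMat (σ * τ)).map ι = (sixMat σ).map ι * (sixMat τ).map ι
        rw [sixMat_mul, Matrix.map_mul])
  have hinj : Function.Injective φ := by
    rw [injective_iff_map_eq_one]
    intro σ hσ
    refine eq_one_of_sixMat (Matrix.map_injective ι.injective ?_)
    change (sixMat σ).map ι = (1 : Matrix _ _ (ZMod 2)).map ι
    rw [Matrix.map_one _ (map_zero ι) (map_one ι)]
    exact congrArg Subtype.val hσ
  exact ⟨(MulEquiv.ofBijective φ ((Nat.bijective_iff_injective_and_card φ).2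
    ⟨hinj, by rw [card_Sp, hF, Nat.card_perm, Nat.card_fin]; rfl⟩)).symm⟩

end CfsgLib.SpGeom
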