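import Mathlib
import Cfsg.Agent.SpGeom.Order
set_option autoImplicit false

/-!
Totally isotropic planes of the four-dimensional symplectic space.
-/

namespace CfsgLib.SpGeom

open Matrix

variable {F : Type*} [Field F] [Fintype F]

local notation "V4" => (Fin 2 ⊕ Fin 2 → F)

theorem card_planes_through {v : V4} (hv : v ≠ 0) :
    Nat.card {W : Submodule F V4 // Module.finrank F W = 2 ∧ v ∈ W ∧
      ∀ u ∈ W, ∀ w ∈ W, Cfsg.sympForm 2 F u w = 0} = Fintype.card F + 1 := by
  classical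
  let T := {W : Submodule F V4 // Module.finrank F W = 2 ∧ v ∈ W ∧
    ∀ u ∈ W, ∀ w ∈ W, Cfsg.sympForm 2 F u w = 0}
  let X := {w : V4 // Cfsg.sympForm 2 F v w = 0 ∧ w ∉ Submodule.span F {v}}
  have hq := Fintype.one_lt_card (α := F)
  set q := Fintype.card F with hqdef
  have hspan : Module.finrank F (Submodule.span F {v}) = 1 := finrank_span_singleton hv
  have hcard : ∀ W : Submodule F V4, Nat.card W = q ^ Module.finrank F W := fun W => by
    rw [Module.natCard_eq_pow_finrank (K := F), Nat.card_eq_fintype_card]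
  -- counting `X`
  have hX : Nat.card X + q = q ^ 3 := by
    let φ : V4 →ₗ[F] F :=
      { toFun := fun w => Cfsg.sympForm 2 F v w
        map_add' := fun a b => form_add_right v a b
        map_smul' := fun a b => form_smul_right a v b }
    have hne : φ ≠ 0 := fun h => by
      obtain ⟨w, hw⟩ := exists_form_ne_zero hv
      exact hw (LinearMap.congr_fun h w)
    have h := card_linear_fibre φ hne 0
    have h4 : Nat.card V4 = q ^ 4 := by
      rw [Nat.card_fun, Nat.card_eq_fintype_card (α := F), Nat.card_sum, Nat.card_fin, ← hqdef]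
    rw [h4, pow_succ q 3] at h
    have h3 := Nat.eq_of_mul_eq_mul_right (by omega) h
    rw [← h3, ← pow_one q, ← hspan, ← hcard]
    have hsub : ∀ w ∈ Submodule.span F {v}, φ w = 0 := fun w hw => by
      obtain ⟨a, rfl⟩ := Submodule.mem_span_singleton.1 hw
      change Cfsg.sympForm 2 F v (a • v) = 0
      rw [form_smul_right, form_self, mul_zero]
    rw [← Nat.card_sum]
    refine Nat.card_congr (Equiv.ofBijective
      (Sum.elim (fun w => ⟨w.1, w.2.1⟩) (fun w => ⟨w.1, hsub w.1 w.2⟩) :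
        X ⊕ Submodule.span F {v} → {w : V4 // φ w = 0}) ⟨?_, fun w => ?_⟩)
    · rintro (a | a) (b | b) hab <;> simp only [Sum.elim_inl, Sum.elim_inr, Subtype.ext_iff] at hab
      · exact congrArg Sum.inl (Subtype.ext hab)
      · exact absurd (hab ▸ b.2) a.2.2
      · exact absurd (hab.symm ▸ a.2) b.2.2
      · exact congrArg Sum.inr (Subtype.ext hab)
    · by_cases hw : w.1 ∈ Submodule.span F {v}
      · exact ⟨Sum.inr ⟨w.1, hw⟩, rfl⟩
      · exact ⟨Sum.inl ⟨w.1, w.2, hw⟩, rfl⟩
  -- each plane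
  have hfib : ∀ W : T, Nat.card {w : V4 // w ∈ W.1 ∧ w ∉ Submodule.span F {v}} + q = q ^ 2 := by
    intro W
    rw [show q ^ 2 = q ^ Module.finrank F W.1 by rw [W.2.1], ← hcard]
    have hsp : Nat.card (Submodule.span F {v}) = q := by rw [hcard, hspan, pow_one]
    conv_lhs => rw [← hsp]
    have hle : Submodule.span F {v} ≤ W.1 := (Submodule.span_singleton_le_iff_mem _ _).2 W.2.2.1
    rw [← Nat.card_sum]
    refine Nat.card_congr (Equiv.ofBijective
      (Sum.elim (fun w => ⟨w.1, w.2.1⟩) (fun w => ⟨w.1, hle w.2⟩) :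
        {w : V4 // w ∈ W.1 ∧ w ∉ Submodule.span F {v}} ⊕ Submodule.span F {v} → W.1) ⟨?_, fun w => ?_⟩)
    · rintro (a | a) (b | b) hab <;> simp only [Sum.elim_inl, Sum.elim_inr, Subtype.ext_iff] at hab
      · exact congrArg Sum.inl (Subtype.ext hab)
      · exact absurd (hab ▸ b.2) a.2.2
      · exact absurd (hab.symm ▸ a.2) b.2.2
      · exact congrArg Sum.inr (Subtype.ext hab)
    · by_cases hw : w.1 ∈ Submodule.span F {v}
      · exact ⟨Sum.inr ⟨w.1, hw⟩, rfl⟩
      · exact ⟨Sum.inl ⟨w.1, w.2, hw⟩, rfl⟩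
  have hplane : ∀ w : X, Module.finrank F (Submodule.span F ({v, w.1} : Set V4)) = 2 ∧
      ∀ u ∈ Submodule.span F ({v, w.1} : Set V4), ∀ u' ∈ Submodule.span F ({v, w.1} : Set V4),
        Cfsg.sympForm 2 F u u' = 0 := by
    intro w
    refine ⟨?_, fun u hu u' hu' => ?_⟩
    · have hli : LinearIndependent F ![v, w.1] := by
        rw [LinearIndependent.pair_iff' hv]
        exact fun a ha => w.2.2 (Submodule.mem_span_singleton.2 ⟨a, ha⟩)
      have e := finrank_span_eq_card hli
      rwa [Matrix.range_cons, Matrix.range_cons, Matrix.range_empty, Set.union_empty,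
        Set.singleton_union, Fintype.card_fin] at e
    · obtain ⟨a, b, rfl⟩ := Submodule.mem_span_pair.1 hu
      obtain ⟨a', b', rfl⟩ := Submodule.mem_span_pair.1 hu'
      simp only [form_add_left, form_add_right, form_smul_left, form_smul_right, form_self,
        form_skew v w.1, w.2.1]
      ring
  let σ : X ≃ Σ W : T, {w : V4 // w ∈ W.1 ∧ w ∉ Submodule.span F {v}} :=
    { toFun := fun w => ⟨⟨Submodule.span F {v, w.1}, (hplane w).1,
        Submodule.subset_span (Set.mem_insert _ _), (hplane w).2⟩,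
        ⟨w.1, Submodule.subset_span (Set.mem_insert_of_mem _ rfl), w.2.2⟩⟩
      invFun := fun p => ⟨p.2.1, p.1.2.2.2 v p.1.2.2.1 p.2.1 p.2.2.1, p.2.2.2⟩
      left_inv := fun w => rfl
      right_inv := fun p => by
        obtain ⟨⟨W, hW2, hvW, hWi⟩, ⟨w, hwW, hwv⟩⟩ := p
        have hspanW : Submodule.span F {v, w} = W := by
          refine Submodule.eq_of_le_of_finrank_le (Submodule.span_le.2
            (Set.insert_subset hvW (Set.singleton_subset_iff.2 hwW))) ?_
          rw [hW2, (hplane ⟨w, hWi v hvW w hwW, hwv⟩).1]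
        subst hspanW
        rfl }
  have h1 : Nat.card X = ∑ W : T, Nat.card {w : V4 // w ∈ W.1 ∧ w ∉ Submodule.span F {v}} := by
    rw [Nat.card_congr σ, Nat.card_sigma]
  rw [Finset.sum_congr rfl (fun W _ => show _ = q ^ 2 - q from
    Nat.eq_sub_of_add_eq (hfib W)), Finset.sum_const, smul_eq_mul, Finset.card_univ,
    ← Nat.card_eq_fintype_card] at h1
  have e2 : q ^ 3 - q = (q + 1) * (q ^ 2 - q) := by
    rw [Nat.mul_sub, show (q + 1) * q ^ 2 = q ^ 3 + q ^ 2 by ring,
      show (q + 1) * q = q ^ 2 + q by ring]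
    omega
  have hpos : 0 < q ^ 2 - q := by
    have : q < q ^ 2 := by nlinarith
    omega
  exact Nat.eq_of_mul_eq_mul_right hpos (h1.symm.trans ((Nat.eq_sub_of_add_eq hX).trans e2))

theorem card_planes :
    Nat.card {W : Submodule F V4 // Module.finrank F W = 2 ∧
      ∀ u ∈ W, ∀ w ∈ W, Cfsg.sympForm 2 F u w = 0} =
      (Fintype.card F + 1) * (Fintype.card F ^ 2 + 1) := by
  classical
  set q := Fintype.card F with hqdef
  have hq := Fintype.one_lt_card (α := F)
  let T := {W : Submodule F V4 // Module.finrank F W = 2 ∧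
    ∀ u ∈ W, ∀ w ∈ W, Cfsg.sympForm 2 F u w = 0}
  let σ : (Σ v : {v : V4 // v ≠ 0}, {W : Submodule F V4 // Module.finrank F W = 2 ∧ v.1 ∈ W ∧
      ∀ u ∈ W, ∀ w ∈ W, Cfsg.sympForm 2 F u w = 0}) ≃ Σ W : T, {v : W.1 // v ≠ 0} :=
    { toFun := fun p => ⟨⟨p.2.1, p.2.2.1, p.2.2.2.2⟩,
        ⟨⟨p.1.1, p.2.2.2.1⟩, fun h => p.1.2 (congrArg Subtype.val h)⟩⟩
      invFun := fun p => ⟨⟨p.2.1.1, fun h => p.2.2 (Subtype.ext h)⟩,
        ⟨p.1.1, p.1.2.1, p.2.1.2, p.1.2.2⟩⟩
      left_inv := fun p => rfl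
      right_inv := fun p => rfl }
  have h4 : Nat.card {v : V4 // v ≠ 0} = q ^ 4 - 1 := by
    rw [Nat.card_eq_fintype_card, Fintype.card_subtype_compl, Fintype.card_fun, Fintype.card_sum,
      Fintype.card_fin, Fintype.card_subtype_eq]
  have h2 : ∀ W : T, Nat.card {v : W.1 // v ≠ 0} = q ^ 2 - 1 := fun W => by
    rw [Nat.card_eq_fintype_card, Fintype.card_subtype_compl, Fintype.card_subtype_eq,
      ← Nat.card_eq_fintype_card, Module.natCard_eq_pow_finrank (K := F), W.2.1,
      Nat.card_eq_fintype_card]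
  have h := Nat.card_congr σ
  rw [Nat.card_sigma, Nat.card_sigma, Finset.sum_congr rfl (fun v _ => card_planes_through v.2),
    Finset.sum_congr rfl (fun W _ => h2 W), Finset.sum_const, Finset.sum_const, smul_eq_mul,
    smul_eq_mul, Finset.card_univ, Finset.card_univ, ← Nat.card_eq_fintype_card (α := {v : V4 // v ≠ 0}),
    ← Nat.card_eq_fintype_card (α := T), h4] at h
  have e : (q ^ 4 - 1) * (q + 1) = (q + 1) * (q ^ 2 + 1) * (q ^ 2 - 1) := by
    have e4 : q ^ 4 - 1 = (q ^ 2 + 1) * (q ^ 2 - 1) := by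
      rw [← Nat.sq_sub_sq, one_pow, ← pow_mul]
    rw [e4]; ring
  have hpos : 0 < q ^ 2 - 1 := by
    have : 1 < q ^ 2 := Nat.one_lt_pow two_ne_zero hq
    omega
  exact Nat.eq_of_mul_eq_mul_right hpos (h.symm.trans e)

end CfsgLib.SpGeom
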