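import Cfsg.Agent.SpGeom.Radical
set_option autoImplicit false

/-!
In `Sp_{2m}`, a nontrivial subgroup of the unitriangular group closed under fusion is the whole group.
-/

namespace CfsgLib.SpBorel

open Matrix

variable {F : Type*} [Field F] {m : ℕ}

local notation "Sp" => Matrix.symplecticGroup (Fin m) F
local notation "Mm" => Matrix (Fin m) (Fin m) F

/-- The symmetric matrix with equal entries at `(a,b)` and `(b,a)`. -/
def sh (a b : Fin m) (c : F) : Mm := Matrix.single a b c + Matrix.single b a c

theorem sh_symm (a b : Fin m) (c : F) : (sh a b c)ᵀ = sh a b c := by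
  rw [sh, transpose_add, transpose_single, transpose_single, add_comm]

theorem single_mul_entry (k i : Fin m) (c : F) (S : Mm) (x y : Fin m) :
    (Matrix.single k i c * S) x y = if x = k then c * S i y else 0 := by
  split_ifs with h
  · rw [h, Matrix.single_mul_apply_same]
  · rw [Matrix.single_mul_apply_of_ne _ _ _ _ _ h]

theorem mul_single_entry (k i : Fin m) (c : F) (S : Mm) (x y : Fin m) :
    (S * Matrix.single i k c) x y = if y = k then S x i * c else 0 := by
  split_ifs with h
  · rw [h, Matrix.mul_single_apply_same]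
  · rw [Matrix.mul_single_apply_of_ne _ _ _ _ _ h]

theorem congr_transvection (k i : Fin m) (c : F) (S : Mm) (x y : Fin m) :
    (((1 : Mm) + Matrix.single k i c) * S * ((1 : Mm) + Matrix.single k i c)ᵀ - S) x y =
      (if x = k then c * S i y else 0) + (if y = k then S x i * c else 0) +
        (if x = k then (if y = k then c * S i i * c else 0) else 0) := by
  rw [transpose_add, transpose_one, transpose_single, Matrix.add_mul, Matrix.one_mul, Matrix.mul_add, Matrix.mul_one,
    Matrix.sub_apply, Matrix.add_apply, Matrix.add_apply, mul_single_entry, Matrix.add_apply, single_mul_entry,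
    single_mul_entry]
  split_ifs <;> ring

theorem single_mul_spot (a b l : Fin m) (c x y : F) :
    Matrix.single a b c * spot l x y = Matrix.single a b (c * if b = l then x else y) := by
  ext i j
  rw [single_mul_entry, spot, diagonal_apply, Matrix.single_apply]
  by_cases hi : i = a <;> by_cases hj : b = j <;> simp [hi, hj, Ne.symm]

theorem spot_mul_single (a b l : Fin m) (c x y : F) :
    spot l x y * Matrix.single a b c = Matrix.single a b ((if a = l then x else y) * c) := by
  ext i j
  rw [mul_single_entry, spot, diagonal_apply, Matrix.single_apply]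
  by_cases hi : i = a <;> by_cases hj : b = j <;> simp [hi, hj, Ne.symm]

/-- A Weyl element carries a short root element of the radical to a Levi root element. -/
theorem weyl_conj [Finite F] {a b : Fin m} (hab : a ≠ b) (c : F) (hs : (sh a b (-c))ᵀ = sh a b (-c)) :
    emb b (CfsgLib.SL2.mk2 (0 : F) (-1) 1 0 (by ring)) * up (sh a b (-c)) hs =
      slev (SpecialLinearGroup.transvection hab c) * emb b (CfsgLib.SL2.mk2 (0 : F) (-1) 1 0 (by ring)) := by
  obtain ⟨w1, w2, w3, w4⟩ := bl_emb b (CfsgLib.SL2.mk2 (0 : F) (-1) 1 0 (by ring))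
  obtain ⟨u1, u2, u3, u4⟩ := bl_up (sh a b (-c)) hs
  obtain ⟨a1, a2, a3, a4⟩ := bl_mul (emb b (CfsgLib.SL2.mk2 (0 : F) (-1) 1 0 (by ring))) (up (sh a b (-c)) hs)
  obtain ⟨b1, b2, b3, b4⟩ := bl_mul (slev (SpecialLinearGroup.transvection hab c)) (emb b (CfsgLib.SL2.mk2 (0 : F) (-1) 1 0 (by ring)))
  have hD : blD (slev (SpecialLinearGroup.transvection hab c)) = (1 + Matrix.single a b (-c))ᵀ := by
    show blD (lev _) = _
    rw [(bl_lev _).2.2.2, ← map_inv, SpecialLinearGroup.transvection_inv]
    rfl
  obtain ⟨l1, l2, l3⟩ := bl_slev (SpecialLinearGroup.transvection hab c)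
  refine ext_bl ?_ ?_ ?_ ?_
  · rw [a1, b1, w1, u1, w2, u3, l1, l2, SpecialLinearGroup.transvection_coe]
    simp [Matrix.add_mul, single_mul_spot]
  · rw [a2, b2, w1, u2, w2, u4, l1, l2, SpecialLinearGroup.transvection_coe, w4]
    simp [sh, Matrix.add_mul, Matrix.mul_add, single_mul_spot, spot_mul_single, hab, hab.symm, add_comm]
  · rw [a3, b3, w3, u1, w4, u3, l3, hD]
    simp [Matrix.add_mul, single_mul_spot, transpose_single, hab]
  · rw [a4, b4, w3, u2, w4, u4, l3, hD]
    simp [sh, Matrix.add_mul, Matrix.mul_add, single_mul_spot, spot_mul_single, transpose_single, hab, hab.symm, add_comm]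

variable [Finite F]

theorem up_inv (S : Mm) (hS : Sᵀ = S) :
    (up S hS)⁻¹ = up (-S) (by rw [transpose_neg, hS]) := by
  refine inv_eq_of_mul_eq_one_right ?_
  rw [up_mul, ← up_zero]
  exact up_congr (neg_add_cancel S)

/-- A nontrivial subgroup of the unitriangular group closed under fusion contains all of it. -/
theorem uni_le_of_closed (hm : 2 ≤ m) (hex : m = 2 → 3 ≤ Nat.card F) (T : Subgroup Sp) (hT : T ≤ uni F m)
    (hne : T ≠ ⊥) (hcl : ∀ g : Sp, ∀ t ∈ T, g * t * g⁻¹ ∈ uni F m → g * t * g⁻¹ ∈ T) : uni F m ≤ T := by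
  classical
  have hnorm : ∀ u ∈ uni F m, ∀ t ∈ T, u * t * u⁻¹ ∈ T := fun u hu t ht =>
    hcl u t ht (mul_mem (mul_mem hu (hT ht)) (inv_mem hu))
  set W : Mm → Prop := fun S => ∃ hS : Sᵀ = S, up S hS ∈ T with hW
  have hWadd : ∀ {S S' : Mm}, W S → W S' → W (S + S') := by
    rintro S S' ⟨hS, h⟩ ⟨hS', h'⟩
    refine ⟨by rw [transpose_add, hS, hS'], ?_⟩
    have := mul_mem h' h
    rw [up_mul] at this
    exact this
  have hWneg : ∀ {S : Mm}, W S → W (-S) := by
    rintro S ⟨hS, h⟩
    refine ⟨by rw [transpose_neg, hS], ?_⟩
    have := inv_mem h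
    rw [up_inv] at this
    exact this
  have hWsub : ∀ {S S' : Mm}, W S → W S' → W (S - S') := fun h h' => by
    rw [sub_eq_add_neg]; exact hWadd h (hWneg h')
  have hWof : ∀ {S S' : Mm} {h : Sᵀ = S}, up S h ∈ T → S = S' → W S' := by
    rintro S _ h hm rfl
    exact ⟨h, hm⟩
  have hW0 : W 0 := ⟨transpose_zero, by rw [up_zero]; exact one_mem T⟩
  have hWcongr : ∀ (g : GL (Fin m) F) {S : Mm}, W S → W (g.1 * S * (g.1)ᵀ) := by
    rintro g S ⟨hS, h⟩
    refine ⟨by rw [transpose_mul, transpose_mul, transpose_transpose, hS, mul_assoc], ?_⟩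
    have := hcl (lev g) _ h (by rw [lev_up]; exact up_mem _ _)
    rwa [lev_up] at this
  have hWop : ∀ {S : Mm}, W S → ∀ (k i : Fin m), k ≠ i → ∀ c : F,
      W ((1 + Matrix.single k i c) * S * (1 + Matrix.single k i c)ᵀ - S) := fun {S} hS k i hki c =>
    hWsub (hWcongr (SpecialLinearGroup.toGL (SpecialLinearGroup.transvection hki c)) hS) hS
  -- a nonzero symmetric element
  obtain ⟨S0, hS0, hS0ne⟩ : ∃ S : Mm, W S ∧ S ≠ 0 := by
    by_contra hcon
    push Not at hcon
    refine hne ((Subgroup.eq_bot_iff_forall _).mpr fun t ht => ?_)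
    obtain ⟨a, S1, hS1, ha, -, ht1⟩ := decompose (hT ht)
    have ha1 : a = 1 := by
      refine Subtype.ext (Matrix.ext fun x i => ?_)
      by_cases hxi : x = i
      · subst hxi
        show a.1 x x = (1 : Mm) x x
        rw [ha.2 x, one_apply_eq]
      show a.1 x i = (1 : Mm) x i
      rw [one_apply_ne hxi]
      have hc : W (a.1 * Matrix.single i i 1 * (a.1)ᵀ - Matrix.single i i 1) := by
        have h1 : t * up (Matrix.single i i 1) (transpose_single i i 1) * t⁻¹ *
            (up (Matrix.single i i 1) (transpose_single i i 1))⁻¹ ∈ T := by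
          rw [show t * up (Matrix.single i i 1) (transpose_single i i 1) * t⁻¹ *
            (up (Matrix.single i i 1) (transpose_single i i 1))⁻¹ = t * (up (Matrix.single i i 1) (transpose_single i i 1) * t⁻¹ *
            (up (Matrix.single i i 1) (transpose_single i i 1))⁻¹) by group]
          exact mul_mem ht (hnorm _ (up_mem _ _) _ (inv_mem ht))
        have h2 : slev a * up (Matrix.single i i 1) (transpose_single i i 1) * (slev a)⁻¹ =
            up (a.1 * Matrix.single i i 1 * (a.1)ᵀ) (by rw [transpose_mul, transpose_mul, transpose_transpose, transpose_single, mul_assoc]) :=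
          lev_up _ _ _
        rw [ht1, show ∀ w : Sp, up S1 hS1 * slev a * w * (up S1 hS1 * slev a)⁻¹ =
          up S1 hS1 * (slev a * w * (slev a)⁻¹) * (up S1 hS1)⁻¹ from fun w => by group, h2, up_inv, up_inv, up_mul, up_mul, up_mul] at h1
        exact hWof h1 (by abel)
      have e := congrFun (congrFun (hcon _ hc) x) x
      rw [Matrix.sub_apply, mul_assoc, Matrix.mul_apply, Finset.sum_eq_single i (fun k _ hk => by
        rw [Matrix.single_mul_apply_of_ne _ _ _ _ _ hk, mul_zero]) (by simp), Matrix.single_mul_apply_same,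
        transpose_apply, Matrix.single_apply, if_neg (fun h => hxi h.1.symm), Matrix.zero_apply, sub_zero, one_mul] at e
      exact mul_self_eq_zero.mp e
    rw [ha1, map_one, mul_one] at ht1
    have := hcon S1 ⟨hS1, ht1 ▸ ht⟩
    rw [ht1]
    exact (up_congr this).trans up_zero
  -- an off-diagonal entry
  obtain ⟨S, hS, i, j, hij, hSij⟩ : ∃ S, W S ∧ ∃ i j, i ≠ j ∧ S i j ≠ 0 := by
    by_cases h : ∃ i j, i ≠ j ∧ S0 i j ≠ 0
    · exact ⟨S0, hS0, h⟩
    push Not at h
    obtain ⟨i, hi⟩ : ∃ i, S0 i i ≠ 0 := by
      by_contra hcon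
      push Not at hcon
      refine hS0ne (Matrix.ext fun x y => ?_)
      by_cases hxy : x = y
      · subst hxy; exact hcon x
      · exact h x y hxy
    haveI : Nontrivial (Fin m) := Fin.nontrivial_iff_two_le.mpr hm
    obtain ⟨k, hk⟩ := exists_ne i
    refine ⟨_, hWop hS0 k i hk 1, k, i, hk, ?_⟩
    rw [congr_transvection, if_pos rfl, if_neg hk.symm, if_pos rfl, if_neg hk.symm, one_mul, add_zero, add_zero]
    exact hi
  have hsym : S i j = S j i := by
    obtain ⟨h, -⟩ := hS
    rw [← congrFun (congrFun h i) j, transpose_apply]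
  -- a pure short element
  obtain ⟨a0, b0, c0, hab0, hc0, hW1⟩ : ∃ a b : Fin m, ∃ c : F, a ≠ b ∧ c ≠ 0 ∧ W (sh a b c) := by
    by_cases h3 : ∃ t : F, t ≠ 0 ∧ t ≠ 1
    · obtain ⟨t, ht0, ht1⟩ := h3
      have hdiag : ∀ (k : Fin m) {S : Mm}, W S → W (Matrix.of fun x y =>
          ((if x = k then t else 1) * (if y = k then t else 1) - 1) * S x y) := by
        intro k S hS
        have h1 := hWsub (hWcongr (GeneralLinearGroup.mkOfDetNeZero (diagonal fun x => if x = k then t else 1)
          (by rw [det_diagonal]; exact Finset.prod_ne_zero_iff.mpr fun x _ => by split_ifs <;> simp [ht0])) hS) hS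
        have e : (GeneralLinearGroup.mkOfDetNeZero (diagonal fun x => if x = k then t else 1)
            (by rw [det_diagonal]; exact Finset.prod_ne_zero_iff.mpr fun x _ => by split_ifs <;> simp [ht0]) : GL (Fin m) F).1 * S *
            ((GeneralLinearGroup.mkOfDetNeZero (diagonal fun x => if x = k then t else 1)
            (by rw [det_diagonal]; exact Finset.prod_ne_zero_iff.mpr fun x _ => by split_ifs <;> simp [ht0]) : GL (Fin m) F).1)ᵀ - S =
            Matrix.of fun x y => ((if x = k then t else 1) * (if y = k then t else 1) - 1) * S x y := by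
          show diagonal _ * S * (diagonal _)ᵀ - S = _
          ext x y
          rw [Matrix.sub_apply, diagonal_transpose, mul_diagonal, diagonal_mul, Matrix.of_apply]
          ring
        exact e ▸ h1
      refine ⟨i, j, (t - 1) * (t - 1) * S i j, hij, mul_ne_zero (mul_ne_zero (sub_ne_zero.mpr ht1) (sub_ne_zero.mpr ht1)) hSij, ?_⟩
      have h2 := hdiag j (hdiag i hS)
      have e : (Matrix.of fun x y => ((if x = j then t else 1) * (if y = j then t else 1) - 1) *
          (Matrix.of fun x y => ((if x = i then t else 1) * (if y = i then t else 1) - 1) * S x y) x y) =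
          sh i j ((t - 1) * (t - 1) * S i j) := by
        ext x y
        rw [Matrix.of_apply, Matrix.of_apply, sh, Matrix.add_apply, Matrix.single_apply, Matrix.single_apply]
        have := Ne.symm hij
        by_cases hxi : x = i <;> by_cases hxj : x = j <;> by_cases hyi : y = i <;> by_cases hyj : y = j <;>
          (subst_vars; simp_all [Ne.symm])
        all_goals ring
      exact e ▸ h2
    · push Not at h3
      have hm3 : 3 ≤ m := by
        by_contra h
        have hcard := hex (by omega)
        have : Fintype F := Fintype.ofFinite F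
        have hsub : (Finset.univ : Finset F) ⊆ {0, 1} := fun x _ => by
          by_cases hx : x = 0
          · simp [hx]
          · simp [h3 x hx]
        have h2 := (Finset.card_le_card hsub).trans Finset.card_le_two
        rw [Nat.card_eq_fintype_card] at hcard
        rw [Finset.card_univ] at h2
        omega
      obtain ⟨k, hki, hkj⟩ : ∃ k : Fin m, k ≠ i ∧ k ≠ j := by
        by_contra hcon
        push Not at hcon
        have hsub : (Finset.univ : Finset (Fin m)) ⊆ {i, j} := fun k _ => by
          by_cases h : k = i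
          · simp [h]
          · simp [hcon k h]
        have h1 := (Finset.card_le_card hsub).trans Finset.card_le_two
        rw [Finset.card_univ, Fintype.card_fin] at h1
        omega
      refine ⟨i, k, S i j, hki.symm, hSij, ?_⟩
      have h2 := hWop (hWop hS k i hki 1) i j hij 1
      have e : (1 + Matrix.single i j (1 : F)) * ((1 + Matrix.single k i (1 : F)) * S * (1 + Matrix.single k i (1 : F))ᵀ - S) *
          (1 + Matrix.single i j (1 : F))ᵀ - ((1 + Matrix.single k i (1 : F)) * S * (1 + Matrix.single k i (1 : F))ᵀ - S) =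
          sh i k (S i j) := by
        ext x y
        rw [congr_transvection i j, congr_transvection k i, congr_transvection k i, congr_transvection k i, sh,
          Matrix.add_apply, Matrix.single_apply, Matrix.single_apply]
        have := Ne.symm hij
        have := Ne.symm hki
        have := Ne.symm hkj
        by_cases hxi : x = i <;> by_cases hxk : x = k <;> by_cases hyi : y = i <;> by_cases hyk : y = k <;>
          (subst_vars; simp_all [Ne.symm])
      exact e ▸ h2
  -- moving entries by monomial matrices
  have hmono : ∀ (σ : Equiv.Perm (Fin m)) (w : Fin m → F), (∀ x, w x ≠ 0) → ∃ g : GL (Fin m) F,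
      ∀ (x y : Fin m) (c : F), g.1 * Matrix.single x y c * (g.1)ᵀ = Matrix.single (σ x) (σ y) (w x * c * w y) := by
    intro σ w hw
    have hdet : (σ⁻¹.permMatrix F * diagonal w).det ≠ 0 := by
      rw [det_mul, det_permutation, det_diagonal]
      refine mul_ne_zero ?_ (Finset.prod_ne_zero_iff.mpr fun x _ => hw x)
      rcases Int.units_eq_one_or (Equiv.Perm.sign σ⁻¹) with h | h <;> rw [h] <;> simp
    refine ⟨GeneralLinearGroup.mkOfDetNeZero _ hdet, fun x y c => ?_⟩
    show σ⁻¹.permMatrix F * diagonal w * Matrix.single x y c * (σ⁻¹.permMatrix F * diagonal w)ᵀ = _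
    have hM : ∀ a b, (σ⁻¹.permMatrix F * diagonal w) a b = if a = σ b then w b else 0 := by
      intro a b
      rw [Matrix.mul_diagonal]
      simp [Equiv.Perm.permMatrix, PEquiv.toMatrix_apply, Equiv.symm_apply_eq]
    ext a b
    rw [Matrix.mul_apply, Finset.sum_eq_single y (fun z _ hz => by
      rw [Matrix.mul_single_apply_of_ne _ _ _ _ _ hz, zero_mul]) (by simp), Matrix.mul_single_apply_same,
      transpose_apply, hM, hM, Matrix.single_apply]
    by_cases ha : a = σ x <;> by_cases hb : b = σ y <;> simp [ha, hb, Ne.symm]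
  have hshAll : ∀ (a b : Fin m), a ≠ b → ∀ c : F, W (sh a b c) := by
    intro a b hab c
    by_cases hc : c = 0
    · subst hc
      rw [sh, Matrix.single_zero, Matrix.single_zero, add_zero]
      exact hW0
    obtain ⟨σ, hσa, hσb⟩ : ∃ σ : Equiv.Perm (Fin m), σ a0 = a ∧ σ b0 = b := by
      refine ⟨Equiv.swap (Equiv.swap a0 a b0) b * Equiv.swap a0 a, ?_, ?_⟩
      · rw [Equiv.Perm.mul_apply, Equiv.swap_apply_left, Equiv.swap_apply_of_ne_of_ne ?_ hab]
        intro h
        exact hab0 ((Equiv.swap a0 a).injective ((Equiv.swap_apply_left a0 a).trans h))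
      · rw [Equiv.Perm.mul_apply, Equiv.swap_apply_left]
    obtain ⟨g, hg⟩ := hmono σ (fun x => if x = a0 then c / c0 else 1) (fun x => by
      split_ifs
      · exact div_ne_zero hc hc0
      · exact one_ne_zero)
    have h1 := hWcongr g hW1
    rw [sh, Matrix.mul_add, Matrix.add_mul, hg, hg, hσa, hσb, if_pos rfl, if_neg (Ne.symm hab0), mul_one, one_mul,
      div_mul_cancel₀ _ hc0, mul_comm c0 (c / c0), div_mul_cancel₀ _ hc0] at h1
    exact h1
  have hlevT : ∀ (a b : Fin m) (hab : a < b) (c : F), slev (SpecialLinearGroup.transvection hab.ne c) ∈ T := by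
    intro a b hab c
    obtain ⟨hs, hmem⟩ := hshAll a b hab.ne (-c)
    set w := emb b (CfsgLib.SL2.mk2 (0 : F) (-1) 1 0 (by ring))
    have key : w * up (sh a b (-c)) hs = slev (SpecialLinearGroup.transvection hab.ne c) * w :=
      weyl_conj hab.ne c hs
    have e : w * up (sh a b (-c)) hs * w⁻¹ = slev (SpecialLinearGroup.transvection hab.ne c) := by
      rw [key, mul_inv_cancel_right]
    rw [← e]
    exact hcl w _ hmem (by rw [e]; exact slev_mem (CfsgLib.SLn.Unip.transvection_mem hab c))
  have hlong : ∀ (a : Fin m) (c : F), W (Matrix.single a a c) := by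
    obtain ⟨o, ho⟩ : ∃ o : Fin m, (o : ℕ) = 0 := ⟨⟨0, by omega⟩, rfl⟩
    obtain ⟨b, hb⟩ : ∃ b : Fin m, (b : ℕ) = 1 := ⟨⟨1, by omega⟩, rfl⟩
    have hob : o < b := by rw [Fin.lt_def]; omega
    have h0 : ∀ c : F, W (Matrix.single o o c) := by
      intro c
      set X := SpecialLinearGroup.transvection hob.ne (1 : F)
      have hX : slev X ∈ T := hlevT o b hob 1
      have h1 : slev X * up (Matrix.single b b c) (transpose_single b b c) * (slev X)⁻¹ *
          (up (Matrix.single b b c) (transpose_single b b c))⁻¹ ∈ T := by
        rw [show slev X * up (Matrix.single b b c) (transpose_single b b c) * (slev X)⁻¹ *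
          (up (Matrix.single b b c) (transpose_single b b c))⁻¹ = slev X * (up (Matrix.single b b c) (transpose_single b b c) * (slev X)⁻¹ *
          (up (Matrix.single b b c) (transpose_single b b c))⁻¹) by group]
        exact mul_mem hX (hnorm _ (up_mem _ _) _ (inv_mem hX))
      rw [show slev X * up (Matrix.single b b c) (transpose_single b b c) * (slev X)⁻¹ = _ from lev_up _ _ _, up_inv, up_mul] at h1
      have h2 : W ((1 + Matrix.single o b (1 : F)) * Matrix.single b b c * (1 + Matrix.single o b (1 : F))ᵀ - Matrix.single b b c) :=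
        hWof h1 (by
          show -Matrix.single b b c + (1 + Matrix.single o b (1 : F)) * Matrix.single b b c * (1 + Matrix.single o b (1 : F))ᵀ = _
          abel)
      have h3 := hWsub h2 (hshAll o b hob.ne c)
      have e : (1 + Matrix.single o b (1 : F)) * Matrix.single b b c * (1 + Matrix.single o b (1 : F))ᵀ - Matrix.single b b c - sh o b c =
          Matrix.single o o c := by
        ext x y
        rw [Matrix.sub_apply, congr_transvection, sh, Matrix.add_apply]
        simp only [Matrix.single_apply]
        have := hob.ne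
        have := hob.ne'
        by_cases hxo : x = o <;> by_cases hyo : y = o <;> by_cases hxb : x = b <;> by_cases hyb : y = b <;>
          (subst_vars; simp_all [Ne.symm])
      exact e ▸ h3
    intro a c
    obtain ⟨g, hg⟩ := hmono (Equiv.swap o a) (fun _ => 1) (fun _ => one_ne_zero)
    have := hWcongr g (h0 c)
    rwa [hg, Equiv.swap_apply_left, one_mul, mul_one] at this
  intro g hg
  obtain ⟨a, S1, hS1, ha, -, rfl⟩ := decompose hg
  refine mul_mem ?_ ?_
  · have hall : W S1 := by
      have hsum : ∀ {ι : Type} (s : Finset ι) (f : ι → Mm), (∀ k ∈ s, W (f k)) → W (∑ k ∈ s, f k) :=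
        fun s f hf => Finset.sum_induction f W (fun _ _ => hWadd) hW0 hf
      have e : S1 = ∑ p : Fin m × Fin m, (if p.1 < p.2 then sh p.1 p.2 (S1 p.1 p.2)
          else if p.1 = p.2 then Matrix.single p.1 p.1 (S1 p.1 p.1) else 0) := by
        ext x y
        rw [Matrix.sum_apply]
        rcases lt_trichotomy x y with h | h | h
        · rw [Finset.sum_eq_single (x, y) (fun p _ hp => ?_) (by simp)]
          · simp [h, sh, Matrix.single_apply, h.ne, h.ne']
          · obtain ⟨u, v⟩ := p
            simp only
            split_ifs with h1 h2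
            · have : ¬(v = x ∧ u = y) := by rintro ⟨rfl, rfl⟩; exact lt_asymm h h1
              have h' : ¬(u = x ∧ v = y) := by rintro ⟨rfl, rfl⟩; exact hp rfl
              simp [sh, Matrix.single_apply, this, h']
            · subst h2
              have : ¬(u = x ∧ u = y) := by rintro ⟨rfl, rfl⟩; exact lt_irrefl _ h
              simp [Matrix.single_apply, this]
            · rfl
        · subst h
          rw [Finset.sum_eq_single (x, x) (fun p _ hp => ?_) (by simp)]
          · simp
          · obtain ⟨u, v⟩ := p
            simp only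
            split_ifs with h1 h2
            · have h3 : ¬(u = x ∧ v = x) := by rintro ⟨rfl, rfl⟩; exact lt_irrefl _ h1
              have h4 : ¬(v = x ∧ u = x) := by rintro ⟨rfl, rfl⟩; exact lt_irrefl _ h1
              simp [sh, Matrix.single_apply, h3, h4]
            · subst h2
              have : ¬(u = x) := by rintro rfl; exact hp rfl
              simp [Matrix.single_apply, this]
            · rfl
        · rw [Finset.sum_eq_single (y, x) (fun p _ hp => ?_) (by simp)]
          · simp [h, sh, Matrix.single_apply, h.ne, h.ne']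
            rw [← congrFun (congrFun hS1 x) y, transpose_apply]
          · obtain ⟨u, v⟩ := p
            simp only
            split_ifs with h1 h2
            · have : ¬(u = x ∧ v = y) := by rintro ⟨rfl, rfl⟩; exact lt_asymm h h1
              have h' : ¬(v = x ∧ u = y) := by rintro ⟨rfl, rfl⟩; exact hp rfl
              simp [sh, Matrix.single_apply, this, h']
            · subst h2
              have : ¬(u = x ∧ u = y) := by rintro ⟨rfl, rfl⟩; exact lt_irrefl _ h
              simp [Matrix.single_apply, this]
            · rfl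
      rw [e]
      refine hsum _ _ fun p _ => ?_
      split_ifs with h1 h2
      · exact hshAll _ _ h1.ne _
      · exact hlong _ _
      · exact hW0
    exact hall.2
  · have : CfsgLib.SLn.Unip.upperUni F m ≤ T.comap slev := by
      refine CfsgLib.SLn.Unip.upperUni_le_closure.trans ((Subgroup.closure_le _).mpr ?_)
      rintro _ ⟨x, y, hxy, c, rfl⟩
      exact hlevT x y hxy c
    exact this ha

end CfsgLib.SpBorel
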