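import Cfsg.Agent.Symp.Basic
import Cfsg.Agent.SLn.PSLFusion
set_option autoImplicit false

/-!
The upper unitriangular subgroup, the Borel subgroup and the radicals of the minimal parabolic
subgroups of the symplectic group, in the basis `e₁ … e_m, f₁ … f_m`.
-/

namespace CfsgLib.SpBorel

open Matrix

variable {F : Type*} [Field F] {m : ℕ}

local notation "Sp" => Matrix.symplecticGroup (Fin m) F
local notation "Mm" => Matrix (Fin m) (Fin m) F

/-- The upper left block. -/
def blA (g : Sp) : Mm := g.1.toBlocks₁₁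
/-- The upper right block. -/
def blB (g : Sp) : Mm := g.1.toBlocks₁₂
/-- The lower left block. -/
def blC (g : Sp) : Mm := g.1.toBlocks₂₁
/-- The lower right block. -/
def blD (g : Sp) : Mm := g.1.toBlocks₂₂

theorem blocks_eq (g : Sp) : g.1 = fromBlocks (blA g) (blB g) (blC g) (blD g) :=
  (fromBlocks_toBlocks g.1).symm

theorem bl_mul (g h : Sp) :
    blA (g * h) = blA g * blA h + blB g * blC h ∧ blB (g * h) = blA g * blB h + blB g * blD h ∧
    blC (g * h) = blC g * blA h + blD g * blC h ∧ blD (g * h) = blC g * blB h + blD g * blD h := by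
  have h1 : (g * h).1 = g.1 * h.1 := rfl
  simp only [blA, blB, blC, blD, h1]
  rw [blocks_eq g, blocks_eq h, fromBlocks_multiply]
  simp [blA, blB, blC, blD]

theorem bl_one : blA (1 : Sp) = 1 ∧ blB (1 : Sp) = 0 ∧ blC (1 : Sp) = 0 ∧ blD (1 : Sp) = 1 := by
  have h1 : (1 : Sp).1 = 1 := rfl
  simp only [blA, blB, blC, blD, h1]
  rw [← fromBlocks_one]
  simp only [toBlocks_fromBlocks₁₁, toBlocks_fromBlocks₁₂, toBlocks_fromBlocks₂₁, toBlocks_fromBlocks₂₂, and_self]

theorem ext_bl {g h : Sp} (hA : blA g = blA h) (hB : blB g = blB h) (hC : blC g = blC h)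
    (hD : blD g = blD h) : g = h :=
  Subtype.ext (by rw [blocks_eq g, blocks_eq h, hA, hB, hC, hD])

theorem par_rel {g : Sp} (hg : blC g = 0) :
    blD g * (blA g)ᵀ = 1 ∧ (blB g * (blA g)ᵀ)ᵀ = blB g * (blA g)ᵀ := by
  have h := SymplecticGroup.mem_iff.mp g.2
  rw [blocks_eq g, hg] at h
  simp [J, fromBlocks_transpose, fromBlocks_multiply, fromBlocks_inj] at h
  refine ⟨h.2.2, ?_⟩
  rw [transpose_mul, transpose_transpose]
  have := h.1
  first
    | exact (sub_eq_zero.mp (by linear_combination (norm := abel) this)).symm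
    | exact sub_eq_zero.mp (by linear_combination (norm := abel) this)

theorem par_mul {g h : Sp} (hg : blC g = 0) (hh : blC h = 0) :
    blC (g * h) = 0 ∧ blA (g * h) = blA g * blA h ∧ blD (g * h) = blD g * blD h := by
  obtain ⟨h1, -, h3, h4⟩ := bl_mul g h
  rw [h1, h3, h4, hg, hh]
  simp

/-- Upper triangular square matrices. -/
def Tri (a : Mm) : Prop := ∀ i j : Fin m, j < i → a i j = 0

theorem tri_one : Tri (1 : Mm) := fun i j h => one_apply_ne h.ne'

theorem tri_mul {a b : Mm} (ha : Tri a) (hb : Tri b) :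
    Tri (a * b) ∧ ∀ i, (a * b) i i = a i i * b i i := by
  constructor
  · intro i j hij
    rw [Matrix.mul_apply]
    refine Finset.sum_eq_zero fun k _ => ?_
    by_cases hk : k < i
    · rw [ha i k hk, zero_mul]
    · rw [hb k j (lt_of_lt_of_le hij (not_lt.mp hk)), mul_zero]
  · intro i
    rw [Matrix.mul_apply]
    refine Finset.sum_eq_single i (fun k _ hk => ?_) (by simp)
    rcases lt_or_gt_of_ne hk with h | h
    · rw [ha i k h, zero_mul]
    · rw [hb k i h, mul_zero]

theorem lower_of_rel {a d : Mm} (ha : Tri a) (h : d * aᵀ = 1) :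
    ∀ x z : Fin m, x ≤ z → d x z * a z z = (1 : Mm) x z := by
  suffices H : ∀ r : ℕ, ∀ x z : Fin m, m - (z : ℕ) = r → x ≤ z → d x z * a z z = (1 : Mm) x z from
    fun x z hxz => H _ x z rfl hxz
  intro r
  induction r using Nat.strong_induction_on with
  | _ r ih =>
    intro x z hr hxz
    have e := congrFun (congrFun h x) z
    rw [Matrix.mul_apply, Finset.sum_eq_single z (fun k _ hk => ?_) (by simp)] at e
    · exact e
    · rw [transpose_apply]
      rcases lt_or_gt_of_ne hk with hlt | hgt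
      · rw [ha z k hlt, mul_zero]
      · by_cases ha0 : a k k = 0
        · exfalso
          have hdet : a.det ≠ 0 := by
            intro h0
            have := congrArg Matrix.det h
            rw [det_mul, det_transpose, h0, mul_zero, det_one] at this
            exact zero_ne_one this
          rw [Matrix.det_of_isUpperTriangular (fun i j hij => ha i j hij)] at hdet
          exact hdet (Finset.prod_eq_zero (Finset.mem_univ k) ha0)
        · have hk' := ih (m - (k : ℕ)) (by have := k.isLt; have : (z : ℕ) < k := hgt; omega) x k rfl (hxz.trans hgt.le)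
          rw [one_apply_ne (ne_of_lt (lt_of_le_of_lt hxz hgt))] at hk'
          rw [(mul_eq_zero.mp hk').resolve_right ha0, zero_mul]

/-- Being in the Borel subgroup. -/
def IsBorel (g : Sp) : Prop := blC g = 0 ∧ Tri (blA g)

theorem borel_one : IsBorel (1 : Sp) := ⟨bl_one.2.2.1, by rw [bl_one.1]; exact tri_one⟩

theorem borel_mul {g h : Sp} (hg : IsBorel g) (hh : IsBorel h) :
    IsBorel (g * h) ∧ ∀ i, blA (g * h) i i = blA g i i * blA h i i := by
  obtain ⟨h1, h2, -⟩ := par_mul hg.1 hh.1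
  refine ⟨⟨h1, by rw [h2]; exact (tri_mul hg.2 hh.2).1⟩, fun i => ?_⟩
  rw [h2]; exact (tri_mul hg.2 hh.2).2 i

theorem borel_pow {g : Sp} (hg : IsBorel g) (r : ℕ) :
    IsBorel (g ^ r) ∧ ∀ i, blA (g ^ r) i i = blA g i i ^ r := by
  induction r with
  | zero => exact ⟨by rw [pow_zero]; exact borel_one, fun i => by rw [pow_zero, pow_zero, bl_one.1, one_apply_eq]⟩
  | succ r ih => exact ⟨by rw [pow_succ]; exact (borel_mul ih.1 hg).1, fun i => by
      rw [pow_succ, (borel_mul ih.1 hg).2 i, ih.2 i, pow_succ]⟩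

variable [Finite F]

theorem inv_eq_pow' (g : Sp) : g⁻¹ = g ^ (orderOf g - 1) := by
  refine inv_eq_of_mul_eq_one_right ?_
  have := orderOf_pos g
  rw [← pow_succ', Nat.sub_add_cancel this, pow_orderOf_eq_one]

theorem borel_inv {g : Sp} (hg : IsBorel g) : IsBorel g⁻¹ := by
  rw [inv_eq_pow']; exact (borel_pow hg _).1

variable (F m)

/-- The unitriangular subgroup. -/
def uni : Subgroup Sp where
  carrier := {g | IsBorel g ∧ ∀ i, blA g i i = 1}
  one_mem' := ⟨borel_one, fun i => by rw [bl_one.1, one_apply_eq]⟩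
  mul_mem' := fun {g h} hg hh => ⟨(borel_mul hg.1 hh.1).1, fun i => by
    rw [(borel_mul hg.1 hh.1).2 i, hg.2 i, hh.2 i, mul_one]⟩
  inv_mem' := fun {g} hg => ⟨borel_inv hg.1, fun i => by
    rw [inv_eq_pow', (borel_pow hg.1 _).2 i, hg.2 i, one_pow]⟩

variable {F m}

theorem mem_uni {g : Sp} : g ∈ uni F m ↔ IsBorel g ∧ ∀ i, blA g i i = 1 := Iff.rfl

/-- The upper symmetric element. -/
def up (S : Mm) (hS : Sᵀ = S) : Sp := ⟨_, CfsgLib.Symp.upperSym_mem S hS⟩

@[simp] theorem bl_up (S : Mm) (hS : Sᵀ = S) :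
    blA (up S hS) = 1 ∧ blB (up S hS) = S ∧ blC (up S hS) = 0 ∧ blD (up S hS) = 1 :=
  ⟨toBlocks_fromBlocks₁₁ _ _ _ _, toBlocks_fromBlocks₁₂ _ _ _ _, toBlocks_fromBlocks₂₁ _ _ _ _, toBlocks_fromBlocks₂₂ _ _ _ _⟩

theorem up_mem (S : Mm) (hS : Sᵀ = S) : up S hS ∈ uni F m :=
  ⟨⟨(bl_up S hS).2.2.1, by rw [(bl_up S hS).1]; exact tri_one⟩, fun i => by rw [(bl_up S hS).1, one_apply_eq]⟩

theorem up_mul (S T : Mm) (hS : Sᵀ = S) (hT : Tᵀ = T) :
    up S hS * up T hT = up (T + S) (by rw [transpose_add, hS, hT]) := by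
  refine Subtype.ext ?_
  show fromBlocks 1 S 0 1 * fromBlocks 1 T 0 1 = fromBlocks 1 (T + S) 0 1
  simp [fromBlocks_multiply]

/-- The Levi element attached to an invertible matrix. -/
noncomputable def lev : GL (Fin m) F →* Sp := CfsgLib.WordLaw.toSp F m

theorem bl_lev (a : GL (Fin m) F) :
    blA (lev a) = a.1 ∧ blB (lev a) = 0 ∧ blC (lev a) = 0 ∧ blD (lev a) = ((a⁻¹ : GL (Fin m) F).1)ᵀ := by
  have h : (lev a).1 = fromBlocks a.1 0 0 ((a⁻¹ : GL (Fin m) F).1)ᵀ := rfl
  simp only [blA, blB, blC, blD, h]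
  simp only [toBlocks_fromBlocks₁₁, toBlocks_fromBlocks₁₂, toBlocks_fromBlocks₂₁, toBlocks_fromBlocks₂₂, and_self]

theorem lev_up (a : GL (Fin m) F) (S : Mm) (hS : Sᵀ = S) :
    lev a * up S hS * (lev a)⁻¹ = up (a.1 * S * (a.1)ᵀ) (by rw [transpose_mul, transpose_mul, transpose_transpose, hS, mul_assoc]) := by
  rw [mul_inv_eq_iff_eq_mul]
  refine Subtype.ext ?_
  show fromBlocks a.1 0 0 ((a⁻¹ : GL (Fin m) F).1)ᵀ * fromBlocks 1 S 0 1 =
    fromBlocks 1 (a.1 * S * (a.1)ᵀ) 0 1 * fromBlocks a.1 0 0 ((a⁻¹ : GL (Fin m) F).1)ᵀ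
  have h : (a.1)ᵀ * ((a⁻¹ : GL (Fin m) F).1)ᵀ = 1 := by
    rw [← transpose_mul, ← Units.val_mul, inv_mul_cancel, Units.val_one, transpose_one]
  simp only [fromBlocks_multiply, Matrix.one_mul, Matrix.zero_mul, Matrix.mul_zero, Matrix.mul_one, add_zero,
    zero_add, mul_assoc, h]

/-- `SL_m` as Levi elements. -/
noncomputable def slev : SpecialLinearGroup (Fin m) F →* Sp := lev.comp SpecialLinearGroup.toGL

theorem bl_slev (a : SpecialLinearGroup (Fin m) F) :
    blA (slev a) = a.1 ∧ blB (slev a) = 0 ∧ blC (slev a) = 0 :=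
  ⟨(bl_lev _).1, (bl_lev _).2.1, (bl_lev _).2.2.1⟩

theorem slev_mem {a : SpecialLinearGroup (Fin m) F} (ha : a ∈ CfsgLib.SLn.Unip.upperUni F m) :
    slev a ∈ uni F m :=
  ⟨⟨(bl_slev a).2.2, by rw [(bl_slev a).1]; exact ha.1⟩, fun i => by rw [(bl_slev a).1]; exact ha.2 i⟩

/-- Every unitriangular element is a Levi element times an upper symmetric one. -/
theorem decompose {g : Sp} (hg : g ∈ uni F m) :
    ∃ (a : SpecialLinearGroup (Fin m) F) (S : Mm) (hS : Sᵀ = S),
      a ∈ CfsgLib.SLn.Unip.upperUni F m ∧ a.1 = blA g ∧ g = up S hS * slev a := by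
  obtain ⟨⟨hC, hT⟩, hd⟩ := hg
  obtain ⟨hrel, hsym⟩ := par_rel hC
  let a : SpecialLinearGroup (Fin m) F := ⟨blA g, by
    rw [Matrix.det_of_isUpperTriangular (fun i j hij => hT i j hij)]
    exact Finset.prod_eq_one fun i _ => hd i⟩
  refine ⟨a, blB g * (blA g)ᵀ, hsym, ⟨hT, hd⟩, rfl, ext_bl ?_ ?_ ?_ ?_⟩
  all_goals
    obtain ⟨h1, h2, h3, h4⟩ := bl_mul (up (blB g * (blA g)ᵀ) hsym) (slev a)
    obtain ⟨u1, u2, u3, u4⟩ := bl_up (blB g * (blA g)ᵀ) hsym
    obtain ⟨l1, l2, l3⟩ := bl_slev a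
  · rw [h1, u1, u2, l1, l3]; simp [a]
  · rw [h2, u1, u2, l2]
    simp only [mul_zero, zero_add]
    have hD : blD (slev a) = ((SpecialLinearGroup.toGL a)⁻¹ : GL (Fin m) F).1ᵀ := (bl_lev _).2.2.2
    rw [hD, mul_assoc, ← transpose_mul]
    have : (((SpecialLinearGroup.toGL a)⁻¹ : GL (Fin m) F).1) * blA g = 1 :=
      (SpecialLinearGroup.toGL a).inv_mul
    rw [this, transpose_one, mul_one]
  · rw [h3, u3, l3, hC]; simp
  · rw [h4, u3, u4, one_mul, zero_mul, zero_add]
    have hD : blD (slev a) = ((SpecialLinearGroup.toGL a)⁻¹ : GL (Fin m) F).1ᵀ := (bl_lev _).2.2.2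
    rw [hD]
    calc blD g = blD g * ((((SpecialLinearGroup.toGL a)⁻¹ : GL (Fin m) F).1) * blA g)ᵀ := by
          rw [show (((SpecialLinearGroup.toGL a)⁻¹ : GL (Fin m) F).1) * blA g = 1 from
            (SpecialLinearGroup.toGL a).inv_mul, transpose_one, mul_one]
      _ = _ := by rw [transpose_mul, ← mul_assoc, hrel, one_mul]

theorem up_congr {S T : Mm} {hS : Sᵀ = S} {hT : Tᵀ = T} (h : S = T) : up S hS = up T hT := by
  subst h; rfl

theorem up_zero : up (0 : Mm) transpose_zero = 1 := Subtype.ext fromBlocks_one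

theorem up_pow (S : Mm) (hS : Sᵀ = S) (r : ℕ) :
    up S hS ^ r = up (r • S) (by rw [transpose_smul, hS]) := by
  induction r with
  | zero => rw [pow_zero, ← up_zero]; exact up_congr (zero_smul ℕ S).symm
  | succ r ih => rw [pow_succ', ih, up_mul]; exact up_congr (succ_nsmul S r).symm

variable (p : ℕ) [Fact p.Prime] [CharP F p]

theorem isPGroup_uni : IsPGroup p (uni F m) := by
  rintro ⟨g, hg⟩
  obtain ⟨a, S, hS, ha, haA, -⟩ := decompose hg
  obtain ⟨k, hk⟩ := (CfsgLib.SLn.Unip.isPGroup_upperUni (K := F) (n := m) p) ⟨a, ha⟩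
  refine ⟨k + 1, Subtype.ext ?_⟩
  show g ^ (p ^ (k + 1)) = 1
  have hgk : g ^ (p ^ k) ∈ uni F m := pow_mem hg _
  obtain ⟨a', S', hS', -, haA', hgk'⟩ := decompose hgk
  have hA : ∀ r : ℕ, blA (g ^ r) = a.1 ^ r ∧ blC (g ^ r) = 0 := by
    intro r
    induction r with
    | zero => simp [bl_one]
    | succ r ih =>
      obtain ⟨h1, h2, -⟩ := par_mul ih.2 hg.1.1
      rw [pow_succ, h1, h2, ih.1, ← haA, pow_succ]
      exact ⟨rfl, rfl⟩
  have ha1 : a' = 1 := Subtype.ext (by
    rw [haA', (hA _).1]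
    exact congrArg (fun x : CfsgLib.SLn.Unip.upperUni F m => (x.1.1 : Mm)) hk)
  rw [ha1, map_one, mul_one] at hgk'
  rw [pow_succ, pow_mul, hgk', up_pow, ← up_zero]
  refine up_congr ?_
  ext i j
  simp [CharP.cast_eq_zero F p]

/-- Rank of a basis vector in the flag. -/
def rk : Fin m ⊕ Fin m → ℕ := Sum.elim (fun i => i.val) (fun i => 2 * m - 1 - i.val)

theorem uni_rk {y : Sp} (hy : y ∈ uni F m) (x z : Fin m ⊕ Fin m) (h : rk z ≤ rk x) :
    y.1 x z = (1 : Matrix (Fin m ⊕ Fin m) (Fin m ⊕ Fin m) F) x z := by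
  rw [blocks_eq y, ← fromBlocks_one]
  rcases x with x | x <;> rcases z with z | z <;> simp only [rk, Sum.elim_inl, Sum.elim_inr] at h
  · simp only [fromBlocks_apply₁₁]
    rcases (show z ≤ x from h).lt_or_eq with h' | h'
    · rw [hy.1.2 x z h', one_apply_ne h'.ne']
    · subst h'; rw [hy.2 z, one_apply_eq]
  · exfalso; have := x.isLt; have := z.isLt; omega
  · simp only [fromBlocks_apply₂₁, hy.1.1, Matrix.zero_apply]
  · simp only [fromBlocks_apply₂₂]
    have hxz : x ≤ z := by
      rw [Fin.le_def]; have := x.isLt; have := z.isLt; omega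
    have := lower_of_rel hy.1.2 (par_rel hy.1.1).1 x z hxz
    rwa [hy.2 z, mul_one] at this

theorem isBorel_of_conj_mem {g : Sp} (h : ∀ u ∈ uni F m, g * u * g⁻¹ ∈ uni F m) : IsBorel g := by
  classical
  suffices H : ∀ r : ℕ, ∀ x a : Fin m ⊕ Fin m, 2 * m - rk x = r → rk a < rk x → g.1 x a = 0 by
    refine ⟨?_, fun i j hji => ?_⟩
    · ext i j
      refine H _ (Sum.inr i) (Sum.inl j) rfl ?_
      simp only [rk, Sum.elim_inl, Sum.elim_inr]
      have := i.isLt; have := j.isLt; omega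
    · exact H _ (Sum.inl i) (Sum.inl j) rfl hji
  intro r
  induction r using Nat.strong_induction_on with
  | _ r ih =>
    intro x a hr hax
    have hxlt : rk x < 2 * m := by
      rcases x with x | x <;> simp only [rk, Sum.elim_inl, Sum.elim_inr] <;> have := x.isLt <;> omega
    obtain ⟨u, hu, b, c, hc, hb, hcol⟩ : ∃ u ∈ uni F m, ∃ b : Fin m ⊕ Fin m, ∃ c : F, c ≠ 0 ∧ rk b = rk a + 1 ∧
        ∀ z, u.1 z b = (1 : Matrix (Fin m ⊕ Fin m) (Fin m ⊕ Fin m) F) z b + if z = a then c else 0 := by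
      rcases a with i | i
      · simp only [rk, Sum.elim_inl] at hax ⊢
        by_cases hi : (i : ℕ) + 1 < m
        · set i' : Fin m := ⟨i + 1, hi⟩ with hi'
          have hii : i < i' := by rw [Fin.lt_def, hi']; simp
          refine ⟨slev (SpecialLinearGroup.transvection hii.ne (1 : F)),
            slev_mem (CfsgLib.SLn.Unip.transvection_mem hii 1), Sum.inl i', 1, one_ne_zero, by simp [hi'], fun z => ?_⟩
          rw [blocks_eq (slev _), (bl_slev _).1, (bl_slev _).2.2, ← fromBlocks_one]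
          rcases z with z | z
          · simp only [fromBlocks_apply₁₁, SpecialLinearGroup.transvection_coe, Matrix.add_apply, Matrix.single_apply,
              Sum.inl.injEq]
            congr 1
            simp [eq_comm]
          · simp
        · refine ⟨up (Matrix.single i i 1) (Matrix.transpose_single i i 1), up_mem _ _, Sum.inr i, 1, one_ne_zero,
            by simp only [Sum.elim_inr]; have := i.isLt; omega, fun z => ?_⟩
          show fromBlocks _ _ _ _ z (Sum.inr i) = _
          rw [← fromBlocks_one]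
          rcases z with z | z
          · simp [Matrix.single_apply, eq_comm]
          · simp
      · have hi : 1 ≤ (i : ℕ) := by
          simp only [rk, Sum.elim_inr] at hax hxlt
          have := i.isLt; omega
        set i' : Fin m := ⟨i - 1, by have := i.isLt; omega⟩ with hi'
        have hii : i' < i := by rw [Fin.lt_def, hi']; simp; omega
        refine ⟨slev (SpecialLinearGroup.transvection hii.ne (1 : F)),
          slev_mem (CfsgLib.SLn.Unip.transvection_mem hii 1), Sum.inr i', -1, neg_ne_zero.mpr one_ne_zero,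
          by simp only [rk, Sum.elim_inr, hi']; have := i.isLt; omega, fun z => ?_⟩
        have hD : blD (slev (SpecialLinearGroup.transvection hii.ne (1 : F))) =
            (1 + Matrix.single i' i (-1))ᵀ := by
          show blD (lev _) = _
          rw [(bl_lev _).2.2.2, ← map_inv, SpecialLinearGroup.transvection_inv]
          rfl
        rw [blocks_eq (slev _), (bl_slev _).2.1, hD, ← fromBlocks_one]
        rcases z with z | z
        · simp
        · simp only [fromBlocks_apply₂₂, Matrix.transpose_add, Matrix.transpose_one, Matrix.transpose_single,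
            Matrix.add_apply, Matrix.single_apply, Sum.inr.injEq]
          congr 1
          simp [eq_comm]
    set y := g * u * g⁻¹ with hy
    have hyU : y ∈ uni F m := h u hu
    have e : g * u = y * g := by rw [hy, inv_mul_cancel_right]
    have e' : (g.1 * u.1) x b = (y.1 * g.1) x b := congrArg (fun M : Sp => M.1 x b) e
    rw [Matrix.mul_apply, Matrix.mul_apply] at e'
    simp only [hcol, mul_add, Finset.sum_add_distrib, mul_ite, mul_zero, Finset.sum_ite_eq', Finset.mem_univ,
      if_true] at e'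
    simp only [one_apply, mul_ite, mul_one, mul_zero, Finset.sum_ite_eq', Finset.mem_univ, if_true] at e'
    rw [Finset.sum_eq_single x (fun z _ hz => ?_) (by simp)] at e'
    · rw [uni_rk hyU x x le_rfl, one_apply_eq, one_mul] at e'
      exact (mul_eq_zero.mp (add_eq_left.mp e')).resolve_right hc
    · by_cases hzx : rk z ≤ rk x
      · rw [uni_rk hyU x z hzx, one_apply_ne (Ne.symm hz), zero_mul]
      · rw [ih (2 * m - rk z) (by omega) z b rfl (by omega), mul_zero]

theorem borel_conj {g u : Sp} (hg : IsBorel g) (hu : u ∈ uni F m) : g * u * g⁻¹ ∈ uni F m := by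
  have h1 := (borel_mul hg hu.1)
  refine ⟨(borel_mul h1.1 (borel_inv hg)).1, fun i => ?_⟩
  rw [(borel_mul h1.1 (borel_inv hg)).2 i, h1.2 i, hu.2 i, mul_one,
    ← (borel_mul hg (borel_inv hg)).2 i, mul_inv_cancel, bl_one.1, one_apply_eq]

theorem exists_sylow_uni : ∃ P : Sylow p Sp, (P : Subgroup Sp) = uni F m := by
  obtain ⟨P, hP⟩ := (isPGroup_uni (F := F) (m := m) p).exists_le_sylow
  refine ⟨P, le_antisymm ?_ hP⟩
  by_contra hlt
  have hne : (uni F m).subgroupOf P ≠ ⊤ := fun h => hlt (Subgroup.subgroupOf_eq_top.mp h)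
  haveI : Group.IsNilpotent P := P.isPGroup'.isNilpotent
  have hlt' := Group.normalizerCondition_of_isNilpotent (G := P) _ (lt_top_iff_ne_top.mpr hne)
  obtain ⟨⟨x, hxP⟩, hxN, hxU⟩ := SetLike.exists_of_lt hlt'
  have hb : IsBorel x := isBorel_of_conj_mem fun u hu =>
    (Subgroup.mem_normalizer_iff.mp hxN ⟨u, hP hu⟩).mp hu
  obtain ⟨k, hk⟩ := P.isPGroup' ⟨x, hxP⟩
  have hk' : x ^ (p ^ k) = 1 := congrArg Subtype.val hk
  refine hxU ⟨hb, fun i => ?_⟩
  have h1 := (borel_pow hb (p ^ k)).2 i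
  rw [hk', bl_one.1, one_apply_eq] at h1
  have : (blA x i i - 1) ^ (p ^ k) = 0 := by rw [sub_pow_char_pow, ← h1, one_pow, sub_self]
  exact sub_eq_zero.mp (eq_zero_of_pow_eq_zero this)

end CfsgLib.SpBorel
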