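import Cfsg.Agent.SpGeom.Borel
import Cfsg.Agent.SLn.Basic
set_option autoImplicit false

/-!
Minimal parabolic radicals, coroots and normal subgroups of the unitriangular group in `Sp_{2m}`.
-/

namespace CfsgLib.SpBorel

open Matrix

variable {F : Type*} [Field F] {m : ℕ}

local notation "Sp" => Matrix.symplecticGroup (Fin m) F
local notation "Mm" => Matrix (Fin m) (Fin m) F

/-- A scalar placed at one diagonal entry. -/
def spot (l : Fin m) (x y : F) : Mm := diagonal fun i => if i = l then x else y

theorem spot_mul (l : Fin m) (x y x' y' : F) :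
    spot l x y * spot l x' y' = spot l (x * x') (y * y') := by
  rw [spot, spot, spot, diagonal_mul_diagonal]
  congr 1; funext i; split_ifs <;> rfl

theorem spot_add (l : Fin m) (x y x' y' : F) :
    spot l x y + spot l x' y' = spot l (x + x') (y + y') := by
  rw [spot, spot, spot, diagonal_add]
  congr 1; funext i; split_ifs <;> rfl

theorem spot_neg (l : Fin m) (x y : F) : -spot l x y = spot l (-x) (-y) := by
  rw [spot, spot, diagonal_neg]
  congr 1; funext i; split_ifs <;> rfl

theorem spot_one (l : Fin m) : spot l (1 : F) 1 = 1 := by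
  rw [spot, ← diagonal_one]; congr 1; funext i; split_ifs <;> rfl

theorem spot_zero (l : Fin m) : spot l (0 : F) 0 = 0 := by
  rw [spot, ← diagonal_zero]; congr 1; funext i; split_ifs <;> rfl

/-- `SL₂` on the hyperbolic pair with index `l`, as a matrix. -/
def embMat (l : Fin m) (g : Matrix (Fin 2) (Fin 2) F) : Matrix (Fin m ⊕ Fin m) (Fin m ⊕ Fin m) F :=
  fromBlocks (spot l (g 0 0) 1) (spot l (g 0 1) 0) (spot l (g 1 0) 0) (spot l (g 1 1) 1)

theorem embMat_mem (l : Fin m) (g : SpecialLinearGroup (Fin 2) F) :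
    embMat l g.1 ∈ Matrix.symplecticGroup (Fin m) F := by
  rw [SymplecticGroup.mem_iff]
  have h : g.1 0 0 * g.1 1 1 - g.1 0 1 * g.1 1 0 = 1 := by rw [← det_fin_two]; exact g.2
  have ht : ∀ x y : F, (spot l x y)ᵀ = spot l x y := fun x y => diagonal_transpose _
  simp only [embMat, J, fromBlocks_transpose, fromBlocks_multiply, ht]
  simp only [Matrix.mul_zero, Matrix.mul_neg, Matrix.mul_one, zero_add, add_zero, Matrix.neg_mul,
    spot_mul, spot_neg, spot_add]
  rw [← spot_one l, spot_neg, ← spot_zero l]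
  congr 1 <;> congr 1 <;> first | ring1 | linear_combination h | linear_combination -h

/-- `SL₂` on the hyperbolic pair with index `l`. -/
def emb (l : Fin m) : SpecialLinearGroup (Fin 2) F →* Sp where
  toFun g := ⟨embMat l g.1, embMat_mem l g⟩
  map_one' := Subtype.ext (by
    show embMat l (1 : Matrix (Fin 2) (Fin 2) F) = 1
    simp [embMat, spot_one, spot_zero, fromBlocks_one])
  map_mul' g h := Subtype.ext (by
    show embMat l (g.1 * h.1) = embMat l g.1 * embMat l h.1
    simp [embMat, fromBlocks_multiply, spot_mul, spot_add, Matrix.mul_apply, Fin.sum_univ_two])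

theorem bl_emb (l : Fin m) (g : SpecialLinearGroup (Fin 2) F) :
    blA (emb l g) = spot l (g.1 0 0) 1 ∧ blB (emb l g) = spot l (g.1 0 1) 0 ∧
      blC (emb l g) = spot l (g.1 1 0) 0 ∧ blD (emb l g) = spot l (g.1 1 1) 1 := by
  have h : (emb l g).1 = embMat l g.1 := rfl
  simp only [blA, blB, blC, blD, h, embMat]
  simp only [toBlocks_fromBlocks₁₁, toBlocks_fromBlocks₁₂, toBlocks_fromBlocks₂₁, toBlocks_fromBlocks₂₂, and_self]

variable [Finite F]

theorem tri_col {a : Mm} (ha : Tri a) {l : Fin m} (hl : (l : ℕ) + 1 = m) (j : Fin m) :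
    a l j = if j = l then a l l else 0 := by
  split_ifs with h
  · rw [h]
  · refine ha l j ?_
    have : (j : ℕ) ≠ l := fun h' => h (Fin.ext h')
    have := j.isLt
    rw [Fin.lt_def]; omega

theorem blD_col {g : Sp} (hg : g ∈ uni F m) {l : Fin m} (hl : (l : ℕ) + 1 = m) (x : Fin m) :
    blD g x l = (1 : Mm) x l := by
  have := lower_of_rel hg.1.2 (par_rel hg.1.1).1 x l (by rw [Fin.le_def]; have := x.isLt; omega)
  rwa [hg.2 l, mul_one] at this

theorem blB_add {g h : Sp} (hg : g ∈ uni F m) (hh : h ∈ uni F m) {l : Fin m} (hl : (l : ℕ) + 1 = m) :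
    blB (g * h) l l = blB h l l + blB g l l := by
  rw [(bl_mul g h).2.1, Matrix.add_apply, Matrix.mul_apply, Matrix.mul_apply]
  congr 1
  · rw [Finset.sum_eq_single l (fun k _ hk => by rw [tri_col hg.1.2 hl, if_neg hk, zero_mul]) (by simp),
      hg.2 l, one_mul]
  · rw [Finset.sum_eq_single l (fun k _ hk => by rw [blD_col hh hl, one_apply_ne hk, mul_zero]) (by simp),
      blD_col hh hl, one_apply_eq, mul_one]

theorem blA_add {g h : Sp} (hg : g ∈ uni F m) (hh : h ∈ uni F m) {a b : Fin m} (hab : (b : ℕ) = a + 1) :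
    blA (g * h) a b = blA h a b + blA g a b := by
  rw [(par_mul hg.1.1 hh.1.1).2.1]
  have hne : a ≠ b := fun h => by rw [h] at hab; omega
  rw [Matrix.mul_apply, Fintype.sum_eq_add a b hne, hg.2 a, hh.2 b, one_mul, mul_one]
  rintro k ⟨hka, hkb⟩
  by_cases hk : k < a
  · rw [hg.1.2 a k hk, zero_mul]
  · have : b < k := by
      have h1 : (k : ℕ) ≠ a := fun h => hka (Fin.ext h)
      have h2 : (k : ℕ) ≠ b := fun h => hkb (Fin.ext h)
      rw [Fin.lt_def] at hk ⊢; omega
    rw [hh.1.2 k b this, mul_zero]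

/-- Indices of the simple roots: the adjacent pairs and the last index. -/
abbrev Simple (m : ℕ) : Type := {ab : Fin m × Fin m // (ab.2 : ℕ) = ab.1 + 1} ⊕ {l : Fin m // (l : ℕ) + 1 = m}

/-- The coordinate of a simple root. -/
def coord : Simple m → Sp → F
  | .inl ab, g => blA g ab.1.1 ab.1.2
  | .inr l, g => blB g l.1 l.1

theorem coord_mul (i : Simple m) {g h : Sp} (hg : g ∈ uni F m) (hh : h ∈ uni F m) :
    coord i (g * h) = coord i h + coord i g := by
  rcases i with ⟨ab, hab⟩ | ⟨l, hl⟩
  · exact blA_add hg hh hab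
  · exact blB_add hg hh hl

theorem coord_one (i : Simple m) : coord i (1 : Sp) = 0 := by
  have h := coord_mul i (one_mem (uni F m)) (one_mem _)
  rw [one_mul] at h
  exact left_eq_add.mp h

/-- The radical of a minimal parabolic subgroup. -/
def rad (i : Simple m) : Subgroup Sp where
  carrier := {g | g ∈ uni F m ∧ coord i g = 0}
  one_mem' := ⟨one_mem _, coord_one i⟩
  mul_mem' := fun {g h} hg hh => ⟨mul_mem hg.1 hh.1, by rw [coord_mul i hg.1 hh.1, hg.2, hh.2, add_zero]⟩
  inv_mem' := fun {g} hg => ⟨inv_mem hg.1, by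
    have h := coord_mul i hg.1 (inv_mem hg.1)
    rw [mul_inv_cancel, coord_one, hg.2, add_zero] at h
    exact h.symm⟩

theorem rad_le (i : Simple m) : rad (F := F) i ≤ uni F m := fun _ h => h.1

theorem rad_conj (i : Simple m) {u r : Sp} (hu : u ∈ uni F m) (hr : r ∈ rad i) : u * r * u⁻¹ ∈ rad i := by
  have hy : u * r * u⁻¹ ∈ uni F m := mul_mem (mul_mem hu hr.1) (inv_mem hu)
  refine ⟨hy, ?_⟩
  have h := coord_mul i hy hu
  rw [inv_mul_cancel_right, coord_mul i hu hr.1, hr.2, zero_add] at h
  exact left_eq_add.mp h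

theorem up_mem_rad_short {ab : Fin m × Fin m} (hab : (ab.2 : ℕ) = ab.1 + 1) (S : Mm) (hS : Sᵀ = S) :
    up S hS ∈ rad (F := F) (.inl ⟨ab, hab⟩) :=
  ⟨up_mem S hS, by
    show blA (up S hS) ab.1 ab.2 = 0
    rw [(bl_up S hS).1, one_apply_ne (fun h => by rw [h] at hab; omega)]⟩

/-- Lower root elements of a short simple root normalise its radical. -/
theorem short_lower_normal {ab : Fin m × Fin m} (hab : (ab.2 : ℕ) = ab.1 + 1) (hne : ab.2 ≠ ab.1) (c : F)
    {r : Sp} (hr : r ∈ rad (.inl ⟨ab, hab⟩)) :
    slev (SpecialLinearGroup.transvection hne c) * r * (slev (SpecialLinearGroup.transvection hne c))⁻¹ ∈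
      rad (.inl ⟨ab, hab⟩) := by
  obtain ⟨a, S, hS, ha, haA, hrd⟩ := decompose hr.1
  have har : a ∈ CfsgLib.SLn.Unip.rad ab.1 ab.2 hab := ⟨ha, by rw [haA]; exact hr.2⟩
  have hconj := CfsgLib.SLn.Unip.rad_conj_lower hne c har
  set x := SpecialLinearGroup.transvection hne c with hx
  have e : slev x * r * (slev x)⁻¹ = slev x * up S hS * (slev x)⁻¹ * slev (x * a * x⁻¹) := by
    rw [hrd, map_mul, map_mul, map_inv]; group
  rw [e, show slev x * up S hS * (slev x)⁻¹ = _ from lev_up _ S hS]
  refine mul_mem (up_mem_rad_short hab _ _) ⟨slev_mem hconj.1, ?_⟩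
  show blA (slev (x * a * x⁻¹)) ab.1 ab.2 = 0
  rw [(bl_slev _).1]
  exact hconj.2

/-- Lower root elements of the long simple root normalise its radical. -/
theorem long_lower_normal {l : Fin m} (hl : (l : ℕ) + 1 = m) {x : SpecialLinearGroup (Fin 2) F}
    (h00 : x.1 0 0 = 1) (h01 : x.1 0 1 = 0) (h11 : x.1 1 1 = 1) {r : Sp} (hr : r ∈ rad (.inr ⟨l, hl⟩)) :
    emb l x * r * (emb l x)⁻¹ ∈ rad (.inr ⟨l, hl⟩) := by
  set c := x.1 1 0
  obtain ⟨xA, xB, xC, xD⟩ := bl_emb l x
  rw [h00, spot_one] at xA
  rw [h01, spot_zero] at xB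
  rw [h11, spot_one] at xD
  have hi : ∀ y : Sp, y = emb l x * r * (emb l x)⁻¹ → y * emb l x = emb l x * r := fun y hy => by
    rw [hy, inv_mul_cancel_right]
  set y := emb l x * r * (emb l x)⁻¹ with hy
  have e := hi y rfl
  obtain ⟨m1, m2, m3, m4⟩ := bl_mul y (emb l x)
  obtain ⟨n1, n2, n3, n4⟩ := bl_mul (emb l x) r
  rw [e] at m1 m2 m3 m4
  rw [xA, xB, xC, xD, hr.1.1.1] at *
  simp only [Matrix.one_mul, Matrix.mul_one, Matrix.zero_mul, Matrix.mul_zero, add_zero, zero_add] at m1 m2 m3 m4 n1 n2 n3 n4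
  have hB : blB y = blB r := m2.symm.trans n2
  have hcE : ∀ M : Mm, ∀ i j, (spot l c 0 * M) i j = if i = l then c * M l j else 0 := by
    intro M i j; rw [spot, Matrix.diagonal_mul]; split_ifs with h <;> simp_all
  have hEc : ∀ M : Mm, ∀ i j, (M * spot l c 0) i j = if j = l then c * M i l else 0 := by
    intro M i j; rw [spot, Matrix.mul_diagonal]; split_ifs with h <;> simp_all [mul_comm]
  have hBll : blB r l l = 0 := hr.2
  have hA : ∀ i j, blA y i j = blA r i j - if j = l then c * blB r i l else 0 := by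
    intro i j
    have := congrFun (congrFun (n1.symm.trans m1) i) j
    rw [Matrix.add_apply, hEc, hB] at this
    linear_combination -this
  have hD : ∀ i j, blD y i j = (if i = l then c * blB r l j else 0) + blD r i j := by
    intro i j
    have := congrFun (congrFun (n4.symm.trans m4) i) j
    rw [Matrix.add_apply, hcE] at this
    exact this.symm
  have hC : blC y = 0 := by
    ext i j
    have := congrFun (congrFun (n3.symm.trans m3) i) j
    rw [Matrix.add_apply, hcE, hEc, tri_col hr.1.1.2 hl, hr.1.2 l, hD, blD_col hr.1 hl, hBll] at this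
    simp only [Matrix.zero_apply]
    by_cases hil : i = l <;> by_cases hjl : j = l <;> simp [hil, hjl, one_apply] at this ⊢ <;>
      first | exact this | exact this.symm | linear_combination -this | linear_combination this
  refine ⟨⟨⟨hC, fun i j hji => ?_⟩, fun i => ?_⟩, ?_⟩
  · rw [hA, hr.1.1.2 i j hji, if_neg ?_, sub_zero]
    intro h; subst h
    rw [Fin.lt_def] at hji; have := i.isLt; omega
  · rw [hA, hr.1.2 i]
    by_cases h : i = l
    · subst h; rw [if_pos rfl, hBll, mul_zero, sub_zero]
    · rw [if_neg h, sub_zero]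
  · show blB y l l = 0
    rw [hB]; exact hBll

theorem scalar_center (hm : 0 < m) {z : Sp} (t : F) (hz : z.1 = t • (1 : Matrix (Fin m ⊕ Fin m) (Fin m ⊕ Fin m) F)) (ht : t * t = 1) :
    z ∈ Subgroup.center Sp := by
  rw [CfsgLib.Symp.mem_center_iff hm]
  rcases mul_self_eq_one_iff.mp ht with rfl | rfl
  · exact Or.inl (by rw [hz, one_smul])
  · exact Or.inr (by rw [hz, neg_smul, one_smul])

/-- The centraliser of a radical lies in it, up to the centre. -/
theorem centralizer_rad (hm : 2 ≤ m) (i : Simple m) {g : Sp} (h : ∀ r ∈ rad i, g * r = r * g) :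
    ∃ z ∈ Subgroup.center Sp, z * g ∈ rad i := by
  have hcomm : ∀ (S : Mm) (hS : Sᵀ = S), up S hS ∈ rad i →
      S * blC g = 0 ∧ blA g * S = S * blD g ∧ blC g * S = 0 := by
    intro S hS hmem
    have e := h _ hmem
    obtain ⟨u1, u2, u3, u4⟩ := bl_up S hS
    obtain ⟨a1, a2, a3, a4⟩ := bl_mul g (up S hS)
    obtain ⟨b1, b2, b3, b4⟩ := bl_mul (up S hS) g
    rw [e] at a1 a2 a3 a4
    rw [u1, u2, u3, u4] at *
    simp only [Matrix.one_mul, Matrix.mul_one, Matrix.zero_mul, Matrix.mul_zero, add_zero, zero_add] at a1 a2 a3 a4 b1 b2 b3 b4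
    refine ⟨?_, ?_, ?_⟩
    · have := b1.symm.trans a1
      exact add_eq_left.mp this
    · have := b2.symm.trans a2
      rw [add_comm (blA g * S)] at this
      exact (add_left_cancel this).symm
    · exact add_eq_right.mp (a4.symm.trans b4)
  have hrel : ∀ (t : F), blC g = 0 → (∀ x, blA g x x = t) → (∀ x y : Fin m, x ≠ y → x = ⟨0, by omega⟩ → blD g x y = 0) →
      blD g ⟨0, by omega⟩ ⟨0, by omega⟩ = t → t * t = 1 := by
    intro t hC hA hD hD0
    have e := congrFun (congrFun (par_rel hC).1 ⟨0, by omega⟩) ⟨0, by omega⟩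
    rw [Matrix.mul_apply, Finset.sum_eq_single ⟨0, by omega⟩
      (fun k _ hk => by rw [hD _ k (Ne.symm hk) rfl, zero_mul]) (by simp), transpose_apply, one_apply_eq, hA, hD0] at e
    exact e
  rcases i with ⟨ab, hab⟩ | ⟨l, hl⟩
  · have hall := fun S hS => hcomm S hS (up_mem_rad_short hab S hS)
    obtain ⟨hC, hAD, -⟩ := hall 1 transpose_one
    rw [Matrix.one_mul] at hC
    rw [Matrix.mul_one, Matrix.one_mul] at hAD
    set o : Fin m := ⟨0, by omega⟩
    have key : ∀ x y : Fin m, x ≠ y → blA g x y = 0 := by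
      intro x y hxy
      have := congrFun (congrFun (hall (Matrix.single y y 1) (transpose_single y y 1)).2.1 x) y
      rw [Matrix.mul_single_apply_same, Matrix.single_mul_apply_of_ne _ _ _ _ _ hxy, mul_one] at this
      exact this
    have hd : ∀ x, blA g x x = blA g o o := by
      intro x
      by_cases hxo : x = o
      · rw [hxo]
      have hS : (Matrix.single x o (1 : F) + Matrix.single o x 1)ᵀ = Matrix.single x o 1 + Matrix.single o x 1 := by
        rw [transpose_add, transpose_single, transpose_single, add_comm]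
      have := congrFun (congrFun (hall _ hS).2.1 x) o
      rw [← hAD, Matrix.mul_add, Matrix.add_mul, Matrix.add_apply, Matrix.add_apply,
        Matrix.mul_single_apply_same, Matrix.mul_single_apply_of_ne _ _ _ _ _ (Ne.symm hxo),
        Matrix.single_mul_apply_same, Matrix.single_mul_apply_of_ne _ _ _ _ _ hxo, mul_one, one_mul,
        add_zero, add_zero] at this
      exact this
    have ht : blA g o o * blA g o o = 1 :=
      hrel _ hC hd (fun x y hxy _ => by rw [← hAD]; exact key x y hxy) (by rw [← hAD])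
    set t := blA g o o
    let z : Sp := ⟨t • 1, by
      rw [SymplecticGroup.mem_iff]
      simp [smul_smul, ht]⟩
    have hz : z ∈ Subgroup.center Sp := scalar_center (by omega) t rfl ht
    have hzb : ∀ w : Sp, blA (z * w) = t • blA w ∧ blB (z * w) = t • blB w ∧ blC (z * w) = t • blC w := by
      intro w
      have hv : (z * w).1 = t • w.1 := by
        show (t • (1 : Matrix (Fin m ⊕ Fin m) (Fin m ⊕ Fin m) F)) * w.1 = _
        rw [smul_mul, one_mul]
      simp only [blA, blB, blC, hv]
      exact ⟨rfl, rfl, rfl⟩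
    refine ⟨z, hz, ⟨⟨?_, fun x y hyx => ?_⟩, fun x => ?_⟩, ?_⟩
    · rw [(hzb g).2.2, hC, smul_zero]
    · rw [(hzb g).1, Matrix.smul_apply, key x y hyx.ne', smul_zero]
    · rw [(hzb g).1, Matrix.smul_apply, hd, smul_eq_mul, ht]
    · show blA (z * g) ab.1 ab.2 = 0
      rw [(hzb g).1, Matrix.smul_apply, key _ _ (fun h => by rw [h] at hab; omega), smul_zero]
  · have hmemk : ∀ k : Fin m, k ≠ l → up (Matrix.single k k (1 : F)) (transpose_single k k 1) ∈ rad (.inr ⟨l, hl⟩) := by
      intro k hk
      refine ⟨up_mem _ _, ?_⟩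
      show blB (up _ _) l l = 0
      rw [(bl_up _ _).2.1, Matrix.single_apply, if_neg (fun h => hk h.1)]
    have hSh : ∀ k : Fin m, k ≠ l → (Matrix.single k l (1 : F) + Matrix.single l k 1)ᵀ = Matrix.single k l 1 + Matrix.single l k 1 := by
      intro k _; rw [transpose_add, transpose_single, transpose_single, add_comm]
    have hmemkl : ∀ k : Fin m, ∀ hk : k ≠ l, up _ (hSh k hk) ∈ rad (.inr ⟨l, hl⟩) := by
      intro k hk
      refine ⟨up_mem _ _, ?_⟩
      show blB (up _ _) l l = 0
      rw [(bl_up _ _).2.1, Matrix.add_apply, Matrix.single_apply, Matrix.single_apply, if_neg (fun h => hk h.1),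
        if_neg (fun h => hk h.2), add_zero]
    set o : Fin m := ⟨0, by omega⟩
    have hol : o ≠ l := fun h => by have := congrArg Fin.val h; simp [o] at this; omega
    have hCrow : ∀ k, k ≠ l → ∀ y, blC g k y = 0 := fun k hk y => by
      have := congrFun (congrFun (hcomm _ _ (hmemk k hk)).1 k) y
      simpa [Matrix.single_mul_apply_same] using this
    have hCcol : ∀ k, k ≠ l → ∀ x, blC g x k = 0 := fun k hk x => by
      have := congrFun (congrFun (hcomm _ _ (hmemk k hk)).2.2 x) k
      simpa [Matrix.mul_single_apply_same] using this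
    have hC : blC g = 0 := by
      ext x y
      by_cases hx : x = l
      · by_cases hy : y = l
        · subst hx hy
          have := congrFun (congrFun (hcomm _ _ (hmemkl o hol)).1 o) y
          rw [Matrix.add_mul, Matrix.add_apply, Matrix.single_mul_apply_same,
            Matrix.single_mul_apply_of_ne _ _ _ _ _ hol, add_zero, one_mul] at this
          exact this
        · exact hCcol y hy x
      · exact hCrow x hx y
    have hk1 : ∀ k, k ≠ l → (∀ x, x ≠ k → blA g x k = 0) ∧ (∀ y, y ≠ k → blD g k y = 0) ∧ blA g k k = blD g k k := by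
      intro k hk
      have e := (hcomm _ _ (hmemk k hk)).2.1
      refine ⟨fun x hx => ?_, fun y hy => ?_, ?_⟩
      · have := congrFun (congrFun e x) k
        simpa [Matrix.mul_single_apply_same, Matrix.single_mul_apply_of_ne _ _ _ _ _ hx] using this
      · have := congrFun (congrFun e k) y
        simpa [Matrix.single_mul_apply_same, Matrix.mul_single_apply_of_ne _ _ _ _ _ hy] using this.symm
      · have := congrFun (congrFun e k) k
        simpa [Matrix.single_mul_apply_same, Matrix.mul_single_apply_same] using this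
    have hk2 : ∀ k, k ≠ l → blA g k k = blD g l l ∧ blA g l l = blD g k k := by
      intro k hk
      have e := (hcomm _ _ (hmemkl k hk)).2.1
      refine ⟨?_, ?_⟩
      · have := congrFun (congrFun e k) l
        rw [Matrix.mul_add, Matrix.add_mul, Matrix.add_apply, Matrix.add_apply, Matrix.mul_single_apply_same,
          Matrix.mul_single_apply_of_ne _ _ _ _ _ (Ne.symm hk), Matrix.single_mul_apply_same,
          Matrix.single_mul_apply_of_ne _ _ _ _ _ hk, mul_one, one_mul, add_zero, add_zero] at this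
        exact this
      · have := congrFun (congrFun e l) k
        rw [Matrix.mul_add, Matrix.add_mul, Matrix.add_apply, Matrix.add_apply, Matrix.mul_single_apply_same,
          Matrix.mul_single_apply_of_ne _ _ _ _ _ hk, Matrix.single_mul_apply_same,
          Matrix.single_mul_apply_of_ne _ _ _ _ _ (Ne.symm hk), mul_one, one_mul, zero_add, zero_add] at this
        exact this
    set t := blA g o o
    have hd : ∀ x, blA g x x = t := by
      intro x
      by_cases hx : x = l
      · subst hx
        rw [(hk2 o hol).2, ← (hk1 o hol).2.2]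
      · rw [(hk2 x hx).1, ← (hk2 o hol).1]
    have ht : t * t = 1 := hrel t hC hd (fun x y hxy hx => (hk1 x (hx ▸ hol)).2.1 y (Ne.symm hxy)) (hk1 o hol).2.2.symm
    let z : Sp := ⟨t • 1, by
      rw [SymplecticGroup.mem_iff]
      simp [smul_smul, ht]⟩
    have hz : z ∈ Subgroup.center Sp := scalar_center (by omega) t rfl ht
    have hzb : ∀ w : Sp, blA (z * w) = t • blA w ∧ blB (z * w) = t • blB w ∧ blC (z * w) = t • blC w := by
      intro w
      have hv : (z * w).1 = t • w.1 := by
        show (t • (1 : Matrix (Fin m ⊕ Fin m) (Fin m ⊕ Fin m) F)) * w.1 = _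
        rw [smul_mul, one_mul]
      simp only [blA, blB, blC, hv]
      exact ⟨rfl, rfl, rfl⟩
    have htri : Tri (blA g) := fun x y hyx => by
      refine (hk1 y ?_).1 x hyx.ne'
      intro h; subst h
      rw [Fin.lt_def] at hyx; have := x.isLt; omega
    refine ⟨z, hz, ⟨⟨?_, fun x y hyx => ?_⟩, fun x => ?_⟩, ?_⟩
    · rw [(hzb g).2.2, hC, smul_zero]
    · rw [(hzb g).1, Matrix.smul_apply, htri x y hyx, smul_zero]
    · rw [(hzb g).1, Matrix.smul_apply, hd, smul_eq_mul, ht]
    · show blB (z * g) l l = 0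
      rw [(hzb g).2.1, Matrix.smul_apply]
      have hB : blB g l l = 0 := by
        have hol' : o < l := by rw [Fin.lt_def]; simp [o]; omega
        set T := SpecialLinearGroup.transvection hol'.ne (1 : F)
        have hmem : slev T ∈ rad (F := F) (.inr ⟨l, hl⟩) := ⟨slev_mem (CfsgLib.SLn.Unip.transvection_mem hol' 1), by
          show blB (slev T) l l = 0
          rw [(bl_slev _).2.1]; rfl⟩
        have e := h _ hmem
        have e2 := (bl_mul g (slev T)).2.1
        rw [e, (bl_mul (slev T) g).2.1, (bl_slev T).1, (bl_slev T).2.1, Matrix.zero_mul, add_zero, Matrix.mul_zero, zero_add] at e2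
        have hD : blD (slev T) = (1 + Matrix.single o l (-1 : F))ᵀ := by
          show blD (lev _) = _
          rw [(bl_lev _).2.2.2, ← map_inv, SpecialLinearGroup.transvection_inv]
          rfl
        have := congrFun (congrFun e2 o) l
        rw [hD, SpecialLinearGroup.transvection_coe, transpose_add, transpose_one, transpose_single,
          Matrix.add_mul, Matrix.mul_add, Matrix.one_mul, Matrix.mul_one, Matrix.add_apply, Matrix.add_apply,
          Matrix.single_mul_apply_same, Matrix.mul_single_apply_of_ne _ _ _ _ _ hol.symm, add_zero, one_mul] at this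
        exact add_eq_left.mp this
      rw [hB, smul_zero]

/-- The diagonal Levi elements. -/
noncomputable def dg : (Fin m → Fˣ) →* Sp :=
  lev.comp
    { toFun := fun d => GeneralLinearGroup.mkOfDetNeZero (diagonal fun i => (d i : F))
        (by rw [det_diagonal]; exact Finset.prod_ne_zero_iff.mpr fun i _ => (d i).ne_zero)
      map_one' := Units.ext (by simp)
      map_mul' := fun d d' => Units.ext (by simp [diagonal_mul_diagonal]) }

theorem bl_dg (d : Fin m → Fˣ) :
    blA (dg d) = diagonal (fun i => (d i : F)) ∧ blC (dg d) = 0 := ⟨(bl_lev _).1, (bl_lev _).2.2.1⟩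

theorem dg_mulSingle_long (l : Fin m) (t : Fˣ) :
    dg (Pi.mulSingle l t) = emb l (CfsgLib.SL2.diagT t) := by
  refine ext_bl ?_ ?_ ?_ ?_
  · rw [(bl_dg _).1, (bl_emb _ _).1, spot]
    congr 1
    funext i
    by_cases h : i = l <;> simp [h, Pi.mulSingle_apply]
  · rw [show blB (dg (Pi.mulSingle l t)) = 0 from (bl_lev _).2.1, (bl_emb _ _).2.1]
    simp [spot_zero]
  · rw [(bl_dg _).2, (bl_emb _ _).2.2.1]
    simp [spot_zero]
  · have hD : blD (dg (Pi.mulSingle l t)) = blA (dg (Pi.mulSingle l t)⁻¹) := by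
      rw [(bl_dg _).1]
      refine (bl_lev _).2.2.2.trans ?_
      rw [← map_inv]
      exact diagonal_transpose _
    rw [hD, (bl_dg _).1, (bl_emb _ _).2.2.2, spot]
    congr 1
    funext i
    by_cases h : i = l <;> simp [h, Pi.mulSingle_apply]

theorem dg_mulSingle_short {a b : Fin m} (hne : a ≠ b) (t : Fˣ) :
    dg (Pi.mulSingle a t * Pi.mulSingle b t⁻¹) = slev (SpecialLinearGroup.diag2n hne (t : F) t.ne_zero) := by
  show lev _ = lev _
  congr 1
  refine Units.ext ?_
  show diagonal _ = (SpecialLinearGroup.diag2n hne (t : F) t.ne_zero).1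
  rw [SpecialLinearGroup.diag2n_coe]
  congr 1
  funext i
  by_cases h : i = a
  · subst h; simp [hne]
  · by_cases h' : i = b
    · subst h'; simp [h]
    · simp [h, h']

theorem dg_mem (K : Subgroup Sp) (hs : ∀ (a b : Fin m) (hne : a ≠ b), (b : ℕ) = a + 1 → ∀ t : Fˣ,
      slev (SpecialLinearGroup.diag2n hne (t : F) t.ne_zero) ∈ K)
    (hl : ∀ l : Fin m, (l : ℕ) + 1 = m → ∀ t : Fˣ, emb l (CfsgLib.SL2.diagT t) ∈ K) (d : Fin m → Fˣ) :
    dg d ∈ K := by
  have key : ∀ r : ℕ, ∀ i : Fin m, (i : ℕ) + r + 1 = m → ∀ t : Fˣ, dg (Pi.mulSingle i t) ∈ K := by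
    intro r
    induction r with
    | zero => intro i hi t; rw [dg_mulSingle_long]; exact hl i (by omega) t
    | succ r ih =>
      intro i hi t
      set b : Fin m := ⟨i + 1, by omega⟩
      have hne : i ≠ b := fun h => by have := congrArg Fin.val h; simp [b] at this
      have h1 := hs i b hne rfl t
      rw [← dg_mulSingle_short, map_mul] at h1
      exact (Subgroup.mul_mem_cancel_right K (ih b (by simp [b]; omega) t⁻¹)).mp h1
  show d ∈ K.comap dg
  rw [← Finset.univ_prod_mulSingle d]
  exact Subgroup.prod_mem _ fun i _ => key (m - 1 - i) i (by have := i.isLt; omega) _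

end CfsgLib.SpBorel
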